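import Mathlib

set_option autoImplicit false
namespace Cfsg.Agent.Lib.helper18.Cyc

open Matrix

universe u
variable {F : Type u} [Field F] {ι : Type*} [Fintype ι] [DecidableEq ι]

/-- coefficient-to-matrix map `c ↦ Σ c_i Y^i` -/
def PY (Y : Matrix ι ι F) (D : ℕ) (c : Fin D → F) : Matrix ι ι F :=
  ∑ i : Fin D, c i • Y ^ (i : ℕ)

theorem cyc_indep (Y : Matrix ι ι F) (D : ℕ) (hY0 : Y ^ D = 0) (v : ι → F)
    (hv : (Y ^ (D - 1)) *ᵥ v ≠ 0) :
    LinearIndependent F (fun i : Fin D => (Y ^ (i : ℕ)) *ᵥ v) := by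
  rw [Fintype.linearIndependent_iff]
  intro g hg
  have key : ∀ k, ∀ i : Fin D, (i : ℕ) = k → g i = 0 := by
    intro k
    induction k using Nat.strong_induction_on with
    | _ k ih =>
      intro i hi
      have h1 := congrArg (fun x => (Y ^ (D - 1 - k)) *ᵥ x) hg
      simp only [Matrix.mulVec_sum, Matrix.mulVec_smul, Matrix.mulVec_mulVec, ← pow_add,
        Matrix.mulVec_zero] at h1
      rw [Finset.sum_eq_single i] at h1
      · have e : D - 1 - k + (i : ℕ) = D - 1 := by have := i.isLt; omega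
        rw [e] at h1
        exact (smul_eq_zero.1 h1).resolve_right hv
      · intro j _ hj
        rcases lt_or_gt_of_ne (fun h => hj (Fin.ext h) : (j : ℕ) ≠ i) with h | h
        · rw [ih j (by omega) j rfl, zero_smul]
        · have : Y ^ (D - 1 - k + (j : ℕ)) = 0 := by
            have e : D - 1 - k + (j : ℕ) = D + (j - k - 1) := by have := i.isLt; omega
            rw [e, pow_add, hY0, zero_mul]
          rw [this, Matrix.zero_mulVec, smul_zero]
      · intro h; exact absurd (Finset.mem_univ _) h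
  intro i
  exact key i i rfl

theorem exists_vec (M : Matrix ι ι F) (hM : M ≠ 0) : ∃ v : ι → F, M *ᵥ v ≠ 0 := by
  by_contra h
  push Not at h
  apply hM
  apply Matrix.toLin'.injective
  rw [map_zero]
  apply LinearMap.ext
  intro v
  rw [Matrix.toLin'_apply, h v]
  rfl

theorem cyc_span (Y : Matrix ι ι F) (D : ℕ) (hD : Fintype.card ι = D) (hY0 : Y ^ D = 0)
    (v : ι → F) (hv : (Y ^ (D - 1)) *ᵥ v ≠ 0) :
    Submodule.span F (Set.range (fun i : Fin D => (Y ^ (i : ℕ)) *ᵥ v)) = ⊤ :=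
  (cyc_indep Y D hY0 v hv).span_eq_top_of_card_eq_finrank' (by simp [hD])

theorem comm_eq_PY (Y : Matrix ι ι F) (D : ℕ) (hD : Fintype.card ι = D) (hY0 : Y ^ D = 0)
    (hY1 : Y ^ (D - 1) ≠ 0) (g : Matrix ι ι F) (hg : g * Y = Y * g) :
    ∃ c : Fin D → F, g = PY Y D c := by
  obtain ⟨v, hv⟩ := exists_vec _ hY1
  have hspan := cyc_span Y D hD hY0 v hv
  have hgv : g *ᵥ v ∈ Submodule.span F (Set.range (fun i : Fin D => (Y ^ (i : ℕ)) *ᵥ v)) := by
    rw [hspan]; trivial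
  obtain ⟨c, hc⟩ := (Submodule.mem_span_range_iff_exists_fun F).1 hgv
  refine ⟨c, ?_⟩
  apply Matrix.toLin'.injective
  apply LinearMap.ext_on_range hspan
  intro j
  simp only [Matrix.toLin'_apply]
  have hgj : g * Y ^ (j : ℕ) = Y ^ (j : ℕ) * g := (Commute.pow_right hg j).eq
  rw [Matrix.mulVec_mulVec, hgj, ← Matrix.mulVec_mulVec, ← hc]
  simp only [PY, Matrix.mulVec_sum, Matrix.mulVec_smul, Matrix.mulVec_mulVec, ← pow_add]
  rw [Finset.sum_mul, Matrix.sum_mulVec]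
  apply Finset.sum_congr rfl
  intro i _
  rw [Matrix.smul_mul, ← pow_add, Matrix.smul_mulVec, add_comm]

theorem PY_inj (Y : Matrix ι ι F) (D : ℕ) (hY0 : Y ^ D = 0)
    (hY1 : Y ^ (D - 1) ≠ 0) (c c' : Fin D → F) (h : PY Y D c = PY Y D c') : c = c' := by
  obtain ⟨v, hv⟩ := exists_vec _ hY1
  have hli := cyc_indep Y D hY0 v hv
  have h1 : ∑ i : Fin D, (c i - c' i) • ((Y ^ (i : ℕ)) *ᵥ v) = 0 := by
    have h2 := congrArg (fun M => M *ᵥ v) h
    simp only [PY, Matrix.sum_mulVec, Matrix.smul_mulVec] at h2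
    simp only [sub_smul, Finset.sum_sub_distrib, h2, sub_self]
  have h3 := Fintype.linearIndependent_iff.1 hli _ h1
  funext i
  exact sub_eq_zero.1 (h3 i)

theorem PY_comm (Y : Matrix ι ι F) (D : ℕ) (X : Matrix ι ι F) (hX : Commute X Y) (c : Fin D → F) :
    Commute X (PY Y D c) := by
  unfold PY
  apply Commute.sum_right
  intro i _
  exact (hX.pow_right _).smul_right _

theorem PY_neg (Y : Matrix ι ι F) (D : ℕ) (c : Fin D → F) : - PY Y D c = PY Y D (fun i => - c i) := by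
  simp only [PY, neg_smul, Finset.sum_neg_distrib]

/-- action on a vector killed by `Y` -/
theorem PY_socle (Y : Matrix ι ι F) (D : ℕ) (hD : 0 < D) (c : Fin D → F) (w : ι → F)
    (hw : Y *ᵥ w = 0) : PY Y D c *ᵥ w = c ⟨0, hD⟩ • w := by
  simp only [PY, Matrix.sum_mulVec, Matrix.smul_mulVec]
  rw [Finset.sum_eq_single (⟨0, hD⟩ : Fin D)]
  · simp
  · intro j _ hj
    have hj0 : (j : ℕ) ≠ 0 := fun h => hj (Fin.ext h)
    obtain ⟨k, hk⟩ := Nat.exists_eq_succ_of_ne_zero hj0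
    rw [hk, pow_succ, ← Matrix.mulVec_mulVec, hw, Matrix.mulVec_zero, smul_zero]
  · intro h; exact absurd (Finset.mem_univ _) h

/-- the nilpotent part -/
def RY (Y : Matrix ι ι F) (D : ℕ) (c : Fin D → F) : Matrix ι ι F :=
  ∑ i : Fin D, if (i : ℕ) = 0 then 0 else c i • Y ^ ((i : ℕ) - 1)

theorem PY_decomp (Y : Matrix ι ι F) (D : ℕ) (hD : 0 < D) (c : Fin D → F) :
    PY Y D c = c ⟨0, hD⟩ • 1 + Y * RY Y D c := by
  have h0 : c ⟨0, hD⟩ • (1 : Matrix ι ι F) =
      ∑ i : Fin D, if (i : ℕ) = 0 then c i • (1 : Matrix ι ι F) else 0 := by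
    rw [Finset.sum_eq_single (⟨0, hD⟩ : Fin D)]
    · simp
    · intro j _ hj
      have hj0 : (j : ℕ) ≠ 0 := fun h => hj (Fin.ext h)
      rw [if_neg hj0]
    · intro h; exact absurd (Finset.mem_univ _) h
  rw [h0, RY, Finset.mul_sum, ← Finset.sum_add_distrib, PY]
  apply Finset.sum_congr rfl
  intro i _
  by_cases hi : (i : ℕ) = 0
  · rw [if_pos hi, if_pos hi, mul_zero, add_zero, hi, pow_zero]
  · rw [if_neg hi, if_neg hi, zero_add, Matrix.mul_smul, ← pow_succ']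
    congr 2
    omega

theorem RY_comm (Y : Matrix ι ι F) (D : ℕ) (c : Fin D → F) : Commute Y (RY Y D c) := by
  unfold RY
  apply Commute.sum_right
  intro i _
  split_ifs
  · exact Commute.zero_right _
  · exact ((Commute.refl Y).pow_right _).smul_right _

theorem PY_nilp (Y : Matrix ι ι F) (D : ℕ) (hD : 0 < D) (hY0 : Y ^ D = 0) (c : Fin D → F) :
    IsNilpotent (PY Y D c - c ⟨0, hD⟩ • 1) := by
  rw [PY_decomp Y D hD c, add_sub_cancel_left]
  exact ⟨D, by rw [(RY_comm Y D c).mul_pow, hY0, zero_mul]⟩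


theorem pow_adj (J Y : Matrix ι ι F) (hY : Yᵀ * J = -(J * Y)) (k : ℕ) :
    (Y ^ k)ᵀ * J = (-1 : F) ^ k • (J * Y ^ k) := by
  induction k with
  | zero => simp
  | succ k ih =>
    rw [pow_succ, Matrix.transpose_mul, mul_assoc, ih, Matrix.mul_smul, ← mul_assoc, hY,
      Matrix.neg_mul, mul_assoc, ← pow_succ', pow_succ (-1 : F) k, mul_neg_one, neg_smul, smul_neg,
      ← pow_succ]

theorem PY_adj (J Y : Matrix ι ι F) (hY : Yᵀ * J = -(J * Y)) (D : ℕ) (c : Fin D → F) :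
    (PY Y D c)ᵀ * J = J * PY Y D (fun i => (-1) ^ (i : ℕ) * c i) := by
  simp only [PY, Matrix.transpose_sum, Matrix.transpose_smul, Finset.sum_mul, Finset.mul_sum,
    Matrix.smul_mul, Matrix.mul_smul]
  apply Finset.sum_congr rfl
  intro i _
  rw [pow_adj J Y hY, smul_smul, mul_comm]

/-- Cayley transform -/
noncomputable def cay (x : Matrix ι ι F) : Matrix ι ι F := (1 - x) * (1 + x)⁻¹

theorem comm_inv (M X : Matrix ι ι F) (hM : IsUnit M) (h : X * M = M * X) :
    X * M⁻¹ = M⁻¹ * X := by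
  have hd : IsUnit M.det := (Matrix.isUnit_iff_isUnit_det _).1 hM
  calc X * M⁻¹ = M⁻¹ * M * X * M⁻¹ := by rw [Matrix.nonsing_inv_mul _ hd, one_mul]
    _ = M⁻¹ * (X * M) * M⁻¹ := by rw [h, ← mul_assoc]
    _ = M⁻¹ * X := by rw [mul_assoc, mul_assoc, Matrix.mul_nonsing_inv _ hd, mul_one]

theorem cay_mul (x : Matrix ι ι F) (hx : IsUnit (1 + x)) : cay x * (1 + x) = 1 - x := by
  have hd : IsUnit (1 + x).det := (Matrix.isUnit_iff_isUnit_det _).1 hx
  rw [cay, mul_assoc, Matrix.nonsing_inv_mul _ hd, mul_one]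

theorem one_add_cay (x : Matrix ι ι F) (hx : IsUnit (1 + x)) :
    1 + cay x = (2 : F) • (1 + x)⁻¹ := by
  have hd : IsUnit (1 + x).det := (Matrix.isUnit_iff_isUnit_det _).1 hx
  have h1 : (1 : Matrix ι ι F) = (1 + x) * (1 + x)⁻¹ := (Matrix.mul_nonsing_inv _ hd).symm
  rw [cay]
  nth_rewrite 1 [h1]
  have e : (1 + x + (1 - x) : Matrix ι ι F) = 1 + 1 := by abel
  rw [← add_mul, two_smul, e, add_mul, one_mul]

theorem one_sub_cay (x : Matrix ι ι F) (hx : IsUnit (1 + x)) :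
    1 - cay x = (2 : F) • (x * (1 + x)⁻¹) := by
  have hd : IsUnit (1 + x).det := (Matrix.isUnit_iff_isUnit_det _).1 hx
  have h1 : (1 : Matrix ι ι F) = (1 + x) * (1 + x)⁻¹ := (Matrix.mul_nonsing_inv _ hd).symm
  rw [cay]
  nth_rewrite 1 [h1]
  have e : (1 + x - (1 - x) : Matrix ι ι F) = x + x := by abel
  rw [← sub_mul, two_smul, e, add_mul]

theorem inv_one_add_cay (h2 : (2 : F) ≠ 0) (x : Matrix ι ι F) (hx : IsUnit (1 + x)) :
    (1 + cay x)⁻¹ = (2⁻¹ : F) • (1 + x) := by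
  have hd : IsUnit (1 + x).det := (Matrix.isUnit_iff_isUnit_det _).1 hx
  apply Matrix.inv_eq_right_inv
  rw [one_add_cay x hx, smul_mul_smul_comm, mul_inv_cancel₀ h2, one_smul,
    Matrix.nonsing_inv_mul _ hd]

theorem isUnit_one_add_cay (h2 : (2 : F) ≠ 0) (x : Matrix ι ι F) (hx : IsUnit (1 + x)) :
    IsUnit (1 + cay x) := by
  have hd : IsUnit (1 + x).det := (Matrix.isUnit_iff_isUnit_det _).1 hx
  refine IsUnit.of_mul_eq_one ((2⁻¹ : F) • (1 + x)) ?_
  rw [one_add_cay x hx, smul_mul_smul_comm, mul_inv_cancel₀ h2, one_smul,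
    Matrix.nonsing_inv_mul _ hd]

theorem cay_cay (h2 : (2 : F) ≠ 0) (x : Matrix ι ι F) (hx : IsUnit (1 + x)) :
    cay (cay x) = x := by
  have hd : IsUnit (1 + x).det := (Matrix.isUnit_iff_isUnit_det _).1 hx
  rw [cay, inv_one_add_cay h2 x hx, one_sub_cay x hx, smul_mul_smul_comm, mul_inv_cancel₀ h2,
    one_smul, mul_assoc, Matrix.nonsing_inv_mul _ hd, mul_one]

theorem cay_comm (x y : Matrix ι ι F) (hx : IsUnit (1 + x)) (h : y * x = x * y) :
    y * cay x = cay x * y := by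
  have h1 : y * (1 + x) = (1 + x) * y := by rw [mul_add, add_mul, h, mul_one, one_mul]
  have h2 : y * (1 - x) = (1 - x) * y := by rw [mul_sub, sub_mul, h, mul_one, one_mul]
  rw [cay, ← mul_assoc, h2, mul_assoc, comm_inv _ _ hx h1, mul_assoc]

theorem cay_skew (J g : Matrix ι ι F) (hg : gᵀ * J * g = J) (hu : IsUnit (1 + g)) :
    (cay g)ᵀ * J = -(J * cay g) := by
  have hT : cay g * (1 + g) = 1 - g := cay_mul g hu
  have hTt : IsUnit (1 + g)ᵀ := by
    rw [Matrix.isUnit_iff_isUnit_det, Matrix.det_transpose]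
    exact (Matrix.isUnit_iff_isUnit_det _).1 hu
  have e : (1 + g)ᵀ * ((cay g)ᵀ * J + J * cay g) * (1 + g) = 0 := by
    have e1 : (1 + g)ᵀ * ((cay g)ᵀ * J + J * cay g) * (1 + g) =
        (cay g * (1 + g))ᵀ * J * (1 + g) + (1 + g)ᵀ * J * (cay g * (1 + g)) := by
      rw [Matrix.transpose_mul]
      noncomm_ring
    rw [e1, hT]
    simp only [Matrix.transpose_sub, Matrix.transpose_add, Matrix.transpose_one, sub_mul, mul_sub,
      add_mul, mul_add, one_mul, mul_one, hg]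
    abel
  have e2 := (hu.mul_left_eq_zero).1 e
  have e3 := (hTt.mul_right_eq_zero).1 e2
  exact eq_neg_of_add_eq_zero_left e3

theorem cay_symp (J h : Matrix ι ι F) (hh : hᵀ * J = -(J * h)) (hu : IsUnit (1 + h)) :
    (cay h)ᵀ * J * cay h = J := by
  have hT : cay h * (1 + h) = 1 - h := cay_mul h hu
  have hTt : IsUnit (1 + h)ᵀ := by
    rw [Matrix.isUnit_iff_isUnit_det, Matrix.det_transpose]
    exact (Matrix.isUnit_iff_isUnit_det _).1 hu
  have e : (1 + h)ᵀ * ((cay h)ᵀ * J * cay h - J) * (1 + h) = 0 := by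
    have e1 : (1 + h)ᵀ * ((cay h)ᵀ * J * cay h - J) * (1 + h) =
        (cay h * (1 + h))ᵀ * J * (cay h * (1 + h)) - (1 + h)ᵀ * J * (1 + h) := by
      rw [Matrix.transpose_mul]
      noncomm_ring
    rw [e1, hT]
    simp only [Matrix.transpose_sub, Matrix.transpose_add, Matrix.transpose_one, sub_mul, mul_sub,
      add_mul, mul_add, one_mul, mul_one, hh]
    simp only [Matrix.neg_mul]
    abel
  have e2 := (hu.mul_left_eq_zero).1 e
  have e3 := (hTt.mul_right_eq_zero).1 e2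
  exact sub_eq_zero.1 e3

end Cfsg.Agent.Lib.helper18.Cyc
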