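import Mathlib
import Cfsg.Agent.Lib.helper18.ES2c

open scoped commutatorElement
set_option autoImplicit false

namespace Cfsg.Agent.Lib.helper18.ES2

/-- alternative constructor with product-form commutator hypothesis -/
theorem ES_mk' {E : Type*} [Group E] (z : E) (ne : z ≠ 1) (sq : z * z = 1)
    (cen : ∀ g, z * g = g * z) (sqs : ∀ a : E, a * a = 1 ∨ a * a = z)
    (comms : ∀ a b : E, a * b = b * a ∨ a * b = z * (b * a))
    (cens : ∀ c : E, (∀ g : E, c * g = g * c) → c = 1 ∨ c = z) : ES E z := by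
  refine ⟨ne, sq, cen, sqs, ?_, cens⟩
  intro a b
  rcases comms a b with e | e
  · exact Or.inl (commutatorElement_eq_one_iff_mul_comm.mpr e)
  · right
    rw [commutatorElement_def, e]; group

theorem ES_extraspecial {E : Type*} [Group E] [Finite E] {z : E} (h : ES E z)
    (hc : Nat.card E ≠ 2) : Cfsg.IsExtraspecial 2 E := by
  have : Fact (Nat.Prime 2) := ⟨Nat.prime_two⟩
  have hcen : ∀ c : E, c ∈ Subgroup.center E ↔ (c = 1 ∨ c = z) := by
    intro c
    constructor
    · intro hc'
      exact h.cens c (fun g => (Subgroup.mem_center_iff.mp hc' g).symm)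
    · rintro (rfl | rfl)
      · exact Subgroup.one_mem _
      · exact Subgroup.mem_center_iff.mpr (fun g => (h.cen g).symm)
  have hp : IsPGroup 2 E := by
    intro g
    refine ⟨2, ?_⟩
    have e0 : g ^ 2 ^ 2 = (g * g) * (g * g) := by norm_num [pow_succ, mul_assoc]
    rw [e0]
    rcases h.sqs g with e | e
    · rw [e, mul_one]
    · rw [e, h.sq]
  have hcomm_le : commutator E ≤ Subgroup.center E := by
    rw [commutator_def, Subgroup.commutator_le]
    intro a _ b _
    rw [hcen]
    exact h.comms a b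
  have hz_comm : ∃ a b : E, ⁅a, b⁆ = z := by
    by_contra hcon
    push Not at hcon
    apply hc
    rw [Nat.card_eq_two_iff]
    refine ⟨1, z, fun e => h.ne e.symm, ?_⟩
    ext g
    simp only [Set.mem_insert_iff, Set.mem_singleton_iff, Set.mem_univ, iff_true]
    apply h.cens
    intro g'
    rcases h.comms g g' with e | e
    · exact commutatorElement_eq_one_iff_mul_comm.mp e
    · exact absurd e (hcon g g')
  obtain ⟨a, b, hab⟩ := hz_comm
  have hcenter_le : Subgroup.center E ≤ commutator E := by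
    intro c hc'
    rcases (hcen c).mp hc' with rfl | rfl
    · exact Subgroup.one_mem _
    · rw [← hab, commutator_def]
      exact Subgroup.commutator_mem_commutator (Subgroup.mem_top a) (Subgroup.mem_top b)
  have hcm : commutator E = Subgroup.center E := le_antisymm hcomm_le hcenter_le
  have hfr : frattini E = Subgroup.center E := by
    apply le_antisymm
    · apply Cfsg.Agent.Lib.helper1.frattini_le_of_elementary_quotient 2 (Subgroup.center E)
        hcomm_le
      intro x
      rw [hcen, pow_two]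
      exact h.sqs x
    · rw [← hcm]
      exact Cfsg.Agent.Lib.helper1.commutator_le_frattini 2 hp
  refine ⟨⟨hp, hfr, hcm⟩, ?_⟩
  rw [Nat.card_eq_two_iff]
  refine ⟨1, ⟨z, (hcen z).mpr (Or.inr rfl)⟩, fun e => h.ne (congrArg Subtype.val e).symm, ?_⟩
  ext g
  simp only [Set.mem_insert_iff, Set.mem_singleton_iff, Set.mem_univ, iff_true]
  rcases (hcen g).mp g.2 with e | e
  · exact Or.inl (Subtype.ext e)
  · exact Or.inr (Subtype.ext e)

/-- central involution data -/
structure CI (C : Type*) [Group C] where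
  z : C
  sq : z * z = 1
  cen : ∀ g, z * g = g * z

@[ext] structure DC {C : Type*} [Group C] (Z : CI C) where
  c : C
  a : Bool
  b : Bool

def zb {C : Type*} [Group C] (Z : CI C) (t : Bool) : C := if t then Z.z else 1

namespace DC
variable {C : Type*} [Group C] (Z : CI C)

theorem zb_comm (t : Bool) (g : C) : zb Z t * g = g * zb Z t := by
  cases t <;> simp [zb, Z.cen]

theorem zb_mul (s t : Bool) : zb Z s * zb Z t = zb Z (xor s t) := by
  cases s <;> cases t <;> simp [zb, Z.sq]

theorem zb_mid (x y : C) (s : Bool) : x * zb Z s * y = x * y * zb Z s := by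
  rw [mul_assoc, zb_comm, ← mul_assoc]

instance : Mul (DC Z) :=
  ⟨fun g g' => ⟨g.c * g'.c * zb Z (g.a && g'.b), xor g.a g'.a, xor g.b g'.b⟩⟩
instance : One (DC Z) := ⟨⟨1, false, false⟩⟩
instance : Inv (DC Z) := ⟨fun g => ⟨g.c⁻¹ * zb Z (g.a && g.b), g.a, g.b⟩⟩

theorem mul_def (g g' : DC Z) :
    g * g' = ⟨g.c * g'.c * zb Z (g.a && g'.b), xor g.a g'.a, xor g.b g'.b⟩ := rfl
theorem one_def : (1 : DC Z) = ⟨1, false, false⟩ := rfl
theorem inv_def (g : DC Z) : g⁻¹ = ⟨g.c⁻¹ * zb Z (g.a && g.b), g.a, g.b⟩ := rfl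

instance : Group (DC Z) := Group.ofLeftAxioms
  (by
    rintro ⟨c, a, b⟩ ⟨c', a', b'⟩ ⟨c'', a'', b''⟩
    simp only [mul_def]
    ext
    · show c * c' * zb Z (a && b') * c'' * zb Z (xor a a' && b'') =
        c * (c' * c'' * zb Z (a' && b'')) * zb Z (a && xor b' b'')
      rw [zb_mid, mul_assoc (c * c' * c''), zb_mul, ← mul_assoc c, ← mul_assoc c,
        mul_assoc (c * c' * c''), zb_mul]
      congr 2
      cases a <;> cases a' <;> cases b' <;> cases b'' <;> rfl
    · show xor (xor a a') a'' = xor a (xor a' a'')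
      cases a <;> cases a' <;> cases a'' <;> rfl
    · show xor (xor b b') b'' = xor b (xor b' b'')
      cases b <;> cases b' <;> cases b'' <;> rfl)
  (by
    rintro ⟨c, a, b⟩
    simp only [mul_def, one_def]
    ext <;> simp [zb])
  (by
    rintro ⟨c, a, b⟩
    simp only [mul_def, one_def, inv_def]
    ext
    · show c⁻¹ * zb Z (a && b) * c * zb Z (a && b) = 1
      rw [zb_mid, inv_mul_cancel, one_mul, zb_mul]
      simp [zb]
    · simp
    · simp)

def equiv : DC Z ≃ C × Bool × Bool where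
  toFun g := (g.c, g.a, g.b)
  invFun p := ⟨p.1, p.2.1, p.2.2⟩
  left_inv g := rfl
  right_inv p := rfl

instance [Finite C] : Finite (DC Z) := Finite.of_equiv _ (equiv Z).symm

end DC

namespace DC
variable {C : Type*} [Group C] (Z : CI C)

theorem R_mul {x y x' y' : C} (h1 : x = y ∨ x = Z.z * y) (h2 : x' = y' ∨ x' = Z.z * y') :
    x * x' = y * y' ∨ x * x' = Z.z * (y * y') := by
  rcases h1 with rfl | rfl <;> rcases h2 with rfl | rfl
  · exact Or.inl rfl
  · right
    rw [← mul_assoc, ← Z.cen x, mul_assoc]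
  · right
    rw [mul_assoc]
  · left
    calc Z.z * y * (Z.z * y') = Z.z * (y * Z.z) * y' := by group
      _ = Z.z * (Z.z * y) * y' := by rw [Z.cen y]
      _ = (Z.z * Z.z) * y * y' := by group
      _ = y * y' := by rw [Z.sq, one_mul]

theorem R_zb (s t : Bool) : zb Z s = zb Z t ∨ zb Z s = Z.z * zb Z t := by
  cases s <;> cases t <;> simp [zb, Z.sq]

def zc : DC Z := ⟨Z.z, false, false⟩
def X : DC Z := ⟨1, true, false⟩
def Y : DC Z := ⟨1, false, true⟩

theorem zc_mul (g : DC Z) : zc Z * g = ⟨Z.z * g.c, g.a, g.b⟩ := by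
  rw [mul_def]
  ext <;> simp [zc, zb]

theorem comm_X {g : DC Z} (hz : Z.z ≠ 1) (h : X Z * g = g * X Z) : g.b = false := by
  have h1 := congrArg DC.c h
  simp only [mul_def, X] at h1
  rcases g with ⟨c, a, b⟩
  cases b
  · rfl
  · exfalso
    simp [zb] at h1
    exact hz h1

theorem comm_Y {g : DC Z} (hz : Z.z ≠ 1) (h : Y Z * g = g * Y Z) : g.a = false := by
  have h1 := congrArg DC.c h
  simp only [mul_def, Y] at h1
  rcases g with ⟨c, a, b⟩
  cases a
  · rfl
  · exfalso
    simp [zb] at h1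
    exact hz h1

theorem es (h : ES C Z.z) : ES (DC Z) (zc Z) := by
  apply ES_mk'
  · intro e
    exact h.ne (congrArg DC.c e)
  · rw [zc_mul]
    ext <;> simp [zc, one_def, Z.sq]
  · intro g
    rw [zc_mul, mul_def]
    ext <;> simp [zc, zb, Z.cen]
  · rintro ⟨c, a, b⟩
    have h1 : c * c * zb Z (a && b) = 1 ∨ c * c * zb Z (a && b) = Z.z := by
      rcases h.sqs c with e | e <;> cases (a && b) <;> simp [e, zb, Z.sq]
    rcases h1 with e | e
    · left
      rw [mul_def, one_def]
      ext <;> simp [e]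
    · right
      rw [mul_def]
      ext <;> simp [e, zc]
  · rintro ⟨c, a, b⟩ ⟨c', a', b'⟩
    have h0 : c * c' = c' * c ∨ c * c' = Z.z * (c' * c) := by
      rcases h.comms c c' with e | e
      · exact Or.inl (commutatorElement_eq_one_iff_mul_comm.mp e)
      · right
        rw [← e, commutatorElement_def]; group
    have h1 := R_mul Z h0 (R_zb Z (a && b') (a' && b))
    rcases h1 with e | e
    · left
      rw [mul_def, mul_def]
      ext
      · exact e
      · exact Bool.xor_comm _ _
      · exact Bool.xor_comm _ _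
    · right
      rw [zc_mul, mul_def, mul_def]
      ext
      · exact e
      · exact Bool.xor_comm _ _
      · exact Bool.xor_comm _ _
  · intro g hg
    have ha := comm_Y Z h.ne (hg (Y Z)).symm
    have hb := comm_X Z h.ne (hg (X Z)).symm
    rcases g with ⟨c, a, b⟩
    simp only at ha hb
    subst ha hb
    have hc : ∀ c' : C, c * c' = c' * c := by
      intro c'
      have h1 := congrArg DC.c (hg ⟨c', false, false⟩)
      simpa [mul_def, zb] using h1
    rcases h.cens c hc with e | e
    · left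
      rw [one_def, e]
    · right
      rw [e]; rfl

theorem X_sq : X Z * X Z = 1 := by
  rw [mul_def, one_def]
  ext <;> simp [X, zb]

theorem Y_sq : Y Z * Y Z = 1 := by
  rw [mul_def, one_def]
  ext <;> simp [Y, zb]

theorem XY : ⁅X Z, Y Z⁆ = zc Z := by
  have h1 : X Z * Y Z = zc Z * (Y Z * X Z) := by
    rw [zc_mul, mul_def, mul_def]
    ext <;> simp [X, Y, zb]
  rw [commutatorElement_def, h1]; group

/-- the centralizer of X, Y is a copy of C -/
noncomputable def cequiv (hz : Z.z ≠ 1) : C ≃ Subgroup.centralizer ({X Z, Y Z} : Set (DC Z)) :=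
  Equiv.ofBijective
    (fun c => ⟨⟨c, false, false⟩, by
      rw [mem_cent]
      constructor
      · rw [mul_def, mul_def]; ext <;> simp [X, zb]
      · rw [mul_def, mul_def]; ext <;> simp [Y, zb]⟩)
    (by
      constructor
      · intro c c' hcc
        exact congrArg (fun g : Subgroup.centralizer ({X Z, Y Z} : Set (DC Z)) => (g : DC Z).c) hcc
      · rintro ⟨g, hg⟩
        obtain ⟨h1, h2⟩ := (mem_cent _ _ _).mp hg
        have hb := comm_X Z hz h1
        have ha := comm_Y Z hz h2
        rcases g with ⟨c, a, b⟩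
        simp only at ha hb
        subst ha hb
        exact ⟨c, rfl⟩)

theorem cequiv_val (hz : Z.z ≠ 1) (c : C) : ((cequiv Z hz c : Subgroup.centralizer _) : DC Z) =
    ⟨c, false, false⟩ := rfl

theorem typ [Finite C] (h : ES C Z.z) {n : ℕ} {ε : Bool} (hT : Typ C n ε) :
    Typ (DC Z) (n + 1) ε := by
  have hes := es Z h
  have hce := hes.card_eq (XY Z)
  have hNs : NN (DC Z) = 2 * NN (Subgroup.centralizer ({X Z, Y Z} : Set (DC Z))) +
      Nat.card (Subgroup.centralizer ({X Z, Y Z} : Set (DC Z))) :=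
    hes.N_split (X_sq Z) (Y_sq Z) (XY Z)
  have hc1 : Nat.card (Subgroup.centralizer ({X Z, Y Z} : Set (DC Z))) = Nat.card C :=
    (Nat.card_congr (cequiv Z h.ne)).symm
  have hN1 : NN (Subgroup.centralizer ({X Z, Y Z} : Set (DC Z))) = NN C := by
    unfold NN
    refine (Nat.card_congr (Equiv.subtypeEquiv (cequiv Z h.ne) ?_)).symm
    intro c
    constructor
    · intro hcc
      apply Subtype.ext
      show (⟨c, false, false⟩ : DC Z) * ⟨c, false, false⟩ = 1
      rw [mul_def, one_def]
      ext <;> simp [hcc, zb]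
    · intro hcc
      have h1 : (⟨c, false, false⟩ : DC Z) * ⟨c, false, false⟩ = 1 := congrArg Subtype.val hcc
      have h2 := congrArg DC.c h1
      simpa [mul_def, one_def, zb] using h2
  rw [hc1] at hce hNs
  rw [hN1] at hNs
  obtain ⟨hc, hN⟩ := hT
  have hpos : 0 < 2 ^ n := pow_pos (by norm_num) n
  have e1 : 2 ^ (2 * (n + 1)) = 4 * 2 ^ (2 * n) := by ring
  have e2 : 2 ^ (n + 1) = 2 * 2 ^ n := by ring
  have e3 : 2 ^ (2 * n + 1) = 2 * 2 ^ (2 * n) := by ring
  refine ⟨?_, ?_⟩
  · rw [hce, hc]; ring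
  · rcases hN with ⟨he, hN⟩ | ⟨he, hm1, hN⟩
    · exact Or.inl ⟨he, by omega⟩
    · exact Or.inr ⟨he, by omega, by omega⟩

end DC

theorem d8_es : ES (DihedralGroup 4) (DihedralGroup.r 2) :=
  ⟨by decide, by decide, by decide, by decide, by decide, by decide⟩

theorem q8_es : ES (QuaternionGroup 2) (QuaternionGroup.a 2) :=
  ⟨by decide, by decide, by decide, by decide, by decide, by decide⟩

theorem d8_typ : Typ (DihedralGroup 4) 1 true := by
  refine ⟨?_, Or.inl ⟨rfl, ?_⟩⟩
  · rw [DihedralGroup.nat_card]; norm_num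
  · unfold NN
    rw [Nat.card_eq_fintype_card]
    decide

theorem q8_typ : Typ (QuaternionGroup 2) 1 false := by
  refine ⟨?_, Or.inr ⟨rfl, le_refl 1, ?_⟩⟩
  · rw [Nat.card_eq_fintype_card, QuaternionGroup.card]; norm_num
  · unfold NN
    rw [Nat.card_eq_fintype_card]
    decide

theorem exists_typ (ε : Bool) : ∀ n : ℕ, 1 ≤ n →
    ∃ (E : Type) (_ : Group E) (_ : Finite E) (z : E), ES E z ∧ Typ E n ε := by
  intro n hn
  induction n, hn using Nat.le_induction with
  | base =>
    cases ε
    · exact ⟨QuaternionGroup 2, inferInstance, inferInstance, _, q8_es, q8_typ⟩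
    · exact ⟨DihedralGroup 4, inferInstance, inferInstance, _, d8_es, d8_typ⟩
  | succ n hn ih =>
    obtain ⟨C, _, _, z, h, hT⟩ := ih
    let Z : CI C := ⟨z, h.sq, h.cen⟩
    exact ⟨DC Z, inferInstance, inferInstance, DC.zc Z, DC.es Z h, DC.typ Z h hT⟩

theorem main5396 (n : ℕ) (hn : 1 ≤ n) : ∀ r ∈ ({n, n + 1} : Set ℕ), ∃ (E : Type) (_ : Group E) (_ : Finite E), Cfsg.IsExtraspecial 2 E ∧ Nat.card E = 2 ^ (2 * n + 1) ∧ sSup {k : ℕ | ∃ A : Subgroup E, Cfsg.IsElementaryAbelian 2 A ∧ Nat.card A = 2 ^ k} = r := by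
  intro r hr
  have hε : ∃ ε : Bool, r = ex n ε := by
    rcases hr with rfl | rfl
    · exact ⟨false, by simp [ex]⟩
    · exact ⟨true, by simp [ex]⟩
  obtain ⟨ε, rfl⟩ := hε
  obtain ⟨E, _, _, z, h, hT⟩ := exists_typ ε n hn
  refine ⟨E, inferInstance, inferInstance, ?_, hT.1, ?_⟩
  · apply ES_extraspecial h
    rw [hT.1]
    have : 2 ^ (2 * n + 1) = 2 * 4 ^ n := by rw [pow_succ, pow_mul]; ring
    have h4 : 4 ^ 1 ≤ 4 ^ n := Nat.pow_le_pow_right (by norm_num) hn
    omega
  · apply IsGreatest.csSup_eq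
    constructor
    · obtain ⟨A, hA, hcard⟩ := rank_lb _ E z h le_rfl n ε hT
      have hub := rank_ub _ E z h le_rfl n ε hT A hA
      exact ⟨A, ⟨hA.comm, hA.exp⟩, le_antisymm hub hcard⟩
    · rintro k ⟨A, ⟨hA1, hA2⟩, hcard⟩
      have hub := rank_ub _ E z h le_rfl n ε hT A (EA.of hA1 hA2)
      rw [hcard] at hub
      exact (Nat.pow_le_pow_iff_right (by norm_num)).mp hub

end Cfsg.Agent.Lib.helper18.ES2

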