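import Mathlib
import Cfsg.Prelude.Def_LinearParabolics

set_option autoImplicit false

namespace Cfsg.Agent.Lib.helper18.GLFlag
open Cfsg
open scoped MatrixGroups


section DC
variable {G : Type*} [Group G]

/-- double coset relation -/
def dcRel (H K : Subgroup G) : Setoid G where
  r x y := ∃ a ∈ H, ∃ b ∈ K, y = a * x * b
  iseqv := ⟨fun x => ⟨1, H.one_mem, 1, K.one_mem, by simp⟩,
    fun {x y} ⟨a, ha, b, hb, h⟩ => ⟨a⁻¹, H.inv_mem ha, b⁻¹, K.inv_mem hb, by rw [h]; group⟩,
    fun {x y z} ⟨a, ha, b, hb, h⟩ ⟨a', ha', b', hb', h'⟩ =>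
      ⟨a' * a, H.mul_mem ha' ha, b * b', K.mul_mem hb hb', by rw [h', h]; group⟩⟩

theorem dcRel_iff (H K : Subgroup G) (x y : G) :
    (dcRel H K).r x y ↔ ∃ a ∈ H, ∃ b ∈ K, y = a * x * b := Iff.rfl

/-- fixed points of a product action -/
def fixedByProd (X Y : Type*) [MulAction G X] [MulAction G Y] (g : G) :
    MulAction.fixedBy (X × Y) g ≃ MulAction.fixedBy X g × MulAction.fixedBy Y g where
  toFun p := (⟨p.1.1, congrArg Prod.fst p.2⟩, ⟨p.1.2, congrArg Prod.snd p.2⟩)
  invFun q := ⟨(q.1.1, q.2.1), Prod.ext q.1.2 q.2.2⟩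
  left_inv p := rfl
  right_inv q := rfl

/-- orbits on pairs of cosets = double cosets -/
noncomputable def dcToOrb (H K : Subgroup G) :
    Quotient (dcRel H K) → MulAction.orbitRel.Quotient G ((G ⧸ H) × (G ⧸ K)) :=
  Quotient.lift (fun g => (Quotient.mk'' (((1 : G) : G ⧸ H), (g : G ⧸ K)) :
      MulAction.orbitRel.Quotient G ((G ⧸ H) × (G ⧸ K)))) (by
    rintro x y ⟨a, ha, b, hb, rfl⟩
    apply Quotient.sound'
    show (((1 : G) : G ⧸ H), (x : G ⧸ K)) ∈ MulAction.orbit G (((1 : G) : G ⧸ H), ((a * x * b : G) : G ⧸ K))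
    refine ⟨a⁻¹, ?_⟩
    refine Prod.ext ?_ ?_
    · show ((a⁻¹ * 1 : G) : G ⧸ H) = ((1 : G) : G ⧸ H)
      rw [QuotientGroup.eq]
      simpa using ha
    · show ((a⁻¹ * (a * x * b) : G) : G ⧸ K) = (x : G ⧸ K)
      rw [QuotientGroup.eq]
      have : (a⁻¹ * (a * x * b))⁻¹ * x = b⁻¹ := by group
      rw [this]
      exact K.inv_mem hb)

theorem dcToOrb_bij (H K : Subgroup G) : Function.Bijective (dcToOrb H K) := by
  constructor
  · intro x y
    refine Quotient.inductionOn₂ x y (fun x y h => ?_)
    have h1 : (((1 : G) : G ⧸ H), (x : G ⧸ K)) ∈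
        MulAction.orbit G (((1 : G) : G ⧸ H), (y : G ⧸ K)) := Quotient.exact' h
    obtain ⟨g, hg⟩ := h1
    have h2 : ((g * 1 : G) : G ⧸ H) = ((1 : G) : G ⧸ H) := congrArg Prod.fst hg
    have h3 : ((g * y : G) : G ⧸ K) = (x : G ⧸ K) := congrArg Prod.snd hg
    rw [QuotientGroup.eq] at h2 h3
    apply Quotient.sound
    symm
    refine ⟨g, ?_, (g * y)⁻¹ * x, h3, by group⟩
    have : (g * 1)⁻¹ * 1 = g⁻¹ := by group
    rw [this] at h2
    simpa using H.inv_mem h2
  · intro o
    induction o using Quotient.inductionOn with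
    | _ p =>
      obtain ⟨xh, yk⟩ := p
      induction xh using QuotientGroup.induction_on with
      | _ x =>
        induction yk using QuotientGroup.induction_on with
        | _ y =>
          refine ⟨Quotient.mk _ (x⁻¹ * y), ?_⟩
          apply Quotient.sound'
          show (((1 : G) : G ⧸ H), ((x⁻¹ * y : G) : G ⧸ K)) ∈ MulAction.orbit G ((x : G ⧸ H), (y : G ⧸ K))
          refine ⟨x⁻¹, ?_⟩
          refine Prod.ext ?_ ?_
          · show ((x⁻¹ * x : G) : G ⧸ H) = ((1 : G) : G ⧸ H)
            rw [inv_mul_cancel]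
          · rfl

theorem burnside_dc [Fintype G] (H K : Subgroup G) :
    (Nat.card G : ℂ)⁻¹ * ∑ g : G, fixedPointCharacter H g * fixedPointCharacter K g =
      (Nat.card (Quotient (dcRel H K)) : ℂ) := by
  classical
  have hfin : Finite ((G ⧸ H) × (G ⧸ K)) := inferInstance
  have := Fintype.ofFinite ((G ⧸ H) × (G ⧸ K))
  have := Fintype.ofFinite (MulAction.orbitRel.Quotient G ((G ⧸ H) × (G ⧸ K)))
  have h1 : ∀ g : G, fixedPointCharacter H g * fixedPointCharacter K g =
      (Fintype.card (MulAction.fixedBy ((G ⧸ H) × (G ⧸ K)) g) : ℂ) := by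
    intro g
    unfold fixedPointCharacter
    rw [← Nat.card_eq_fintype_card, Nat.card_congr (fixedByProd (G ⧸ H) (G ⧸ K) g), Nat.card_prod,
      Nat.cast_mul]
  have h2 := MulAction.sum_card_fixedBy_eq_card_orbits_mul_card_group G ((G ⧸ H) × (G ⧸ K))
  have h3 : ∑ g : G, fixedPointCharacter H g * fixedPointCharacter K g =
      (Fintype.card (MulAction.orbitRel.Quotient G ((G ⧸ H) × (G ⧸ K))) : ℂ) *
        (Fintype.card G : ℂ) := by
    rw [Finset.sum_congr rfl (fun g _ => h1 g)]
    exact_mod_cast h2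
  have hG : (Fintype.card G : ℂ) ≠ 0 := by
    exact_mod_cast Fintype.card_ne_zero
  rw [h3, Nat.card_eq_fintype_card, Nat.card_congr (Equiv.ofBijective _ (dcToOrb_bij H K)),
    Nat.card_eq_fintype_card]
  field_simp

end DC



section PM
variable {F : Type*} [Field F] {n : ℕ}

/-- permutation matrix (homomorphic convention) -/
def pm (F : Type*) [Field F] {n : ℕ} (w : Equiv.Perm (Fin n)) : Matrix (Fin n) (Fin n) F :=
  fun i j => if i = w j then 1 else 0

theorem pm_apply (w : Equiv.Perm (Fin n)) (i j : Fin n) :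
    pm F w i j = if i = w j then 1 else 0 := rfl

theorem pm_mul (w w' : Equiv.Perm (Fin n)) : pm F (w * w') = pm F w * pm F w' := by
  ext i k
  rw [Matrix.mul_apply, Finset.sum_eq_single (w' k)]
  · rw [pm_apply, pm_apply, pm_apply, if_pos rfl, mul_one]
    rfl
  · intro j _ hj
    rw [pm_apply, pm_apply, if_neg hj, mul_zero]
  · intro h
    exact absurd (Finset.mem_univ _) h

theorem pm_one : pm F (1 : Equiv.Perm (Fin n)) = 1 := by
  ext i j
  rw [pm_apply, Matrix.one_apply]
  rfl

/-- permutation matrices as a homomorphism into GL -/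
noncomputable def pmGL (F : Type*) [Field F] (n : ℕ) : Equiv.Perm (Fin n) →* GL (Fin n) F where
  toFun w := ⟨pm F w, pm F w⁻¹, by rw [← pm_mul, mul_inv_cancel, pm_one],
    by rw [← pm_mul, inv_mul_cancel, pm_one]⟩
  map_one' := Units.ext pm_one
  map_mul' w w' := Units.ext (pm_mul w w')

theorem pmGL_val (w : Equiv.Perm (Fin n)) :
    ((pmGL F n w : GL (Fin n) F) : Matrix (Fin n) (Fin n) F) = pm F w := rfl

/-- leading (lowest nonzero) index of a vector -/
noncomputable def lead (v : Fin n → F) : ℕ := by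
  classical
  exact (Finset.univ.filter (fun i : Fin n => v i ≠ 0)).sup (fun i => (i : ℕ))

theorem le_lead (v : Fin n → F) (i : Fin n) (h : v i ≠ 0) : (i : ℕ) ≤ lead v := by
  classical
  unfold lead
  exact Finset.le_sup (f := fun i : Fin n => (i : ℕ)) (Finset.mem_filter.mpr ⟨Finset.mem_univ _, h⟩)

theorem exists_lead (v : Fin n → F) (h : v ≠ 0) : ∃ i : Fin n, (i : ℕ) = lead v ∧ v i ≠ 0 := by
  classical
  have hne : (Finset.univ.filter (fun i : Fin n => v i ≠ 0)).Nonempty := by
    by_contra h0
    rw [Finset.not_nonempty_iff_eq_empty] at h0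
    apply h
    funext i
    by_contra hi
    have : i ∈ (Finset.univ.filter (fun i : Fin n => v i ≠ 0)) :=
      Finset.mem_filter.mpr ⟨Finset.mem_univ _, hi⟩
    rw [h0] at this
    exact absurd this (Finset.notMem_empty _)
  obtain ⟨i, hi, he⟩ := Finset.exists_mem_eq_sup _ hne (fun i : Fin n => (i : ℕ))
  exact ⟨i, he.symm, (Finset.mem_filter.mp hi).2⟩

theorem col_ne_zero (g : GL (Fin n) F) (j : Fin n) :
    (fun i => (g : Matrix (Fin n) (Fin n) F) i j) ≠ 0 := by
  intro h
  have h1 : (g : Matrix (Fin n) (Fin n) F).det = 0 :=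
    Matrix.det_eq_zero_of_column_eq_zero j (fun i => congrFun h i)
  exact ((Matrix.isUnit_iff_isUnit_det _).mp g.isUnit).ne_zero h1

/-- the measure: sum of leading indices of the columns -/
noncomputable def meas (M : Matrix (Fin n) (Fin n) F) : ℕ := ∑ j : Fin n, lead (fun i => M i j)

theorem upper_mem (u : GL (Fin n) F)
    (h : ∀ i j : Fin n, j < i → (u : Matrix (Fin n) (Fin n) F) i j = 0) :
    u ∈ upperTriangularGL n F := by
  intro i j hij
  exact h i j hij

theorem col_reduce (k : ℕ) : ∀ (g : GL (Fin n) F), meas (g : Matrix (Fin n) (Fin n) F) = k →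
    ∃ u : GL (Fin n) F, u ∈ upperTriangularGL n F ∧
      Function.Injective (fun j : Fin n =>
        lead (fun i => ((g * u : GL (Fin n) F) : Matrix (Fin n) (Fin n) F) i j)) := by
  induction k using Nat.strong_induction_on with
  | _ k ih =>
    intro g hk
    by_cases hinj : Function.Injective (fun j : Fin n =>
        lead (fun i => (g : Matrix (Fin n) (Fin n) F) i j))
    · exact ⟨1, Subgroup.one_mem _, by simpa using hinj⟩
    · have hex : ∃ j j' : Fin n, j < j' ∧ lead (fun i => (g : Matrix (Fin n) (Fin n) F) i j) =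
          lead (fun i => (g : Matrix (Fin n) (Fin n) F) i j') := by
        unfold Function.Injective at hinj
        push Not at hinj
        obtain ⟨j, j', he, hne⟩ := hinj
        rcases lt_or_gt_of_ne hne with h | h
        · exact ⟨j, j', h, he⟩
        · exact ⟨j', j, h, he.symm⟩
      obtain ⟨j, j', hjj, he⟩ := hex
      obtain ⟨i, hi1, hi2⟩ := exists_lead _ (col_ne_zero g j)
      obtain ⟨i', hi1', hi2'⟩ := exists_lead _ (col_ne_zero g j')
      have hii : i' = i := Fin.ext (by rw [hi1', hi1, he])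
      subst hii
      obtain ⟨c, hc⟩ : ∃ c : F, c = -((g : Matrix (Fin n) (Fin n) F) i' j') /
          (g : Matrix (Fin n) (Fin n) F) i' j := ⟨_, rfl⟩
      have hdet : (Matrix.transvection j j' c).det ≠ 0 := by
        rw [Matrix.det_transvection_of_ne j j' (ne_of_lt hjj)]
        exact one_ne_zero
      have hu0 : Matrix.GeneralLinearGroup.mkOfDetNeZero _ hdet ∈ upperTriangularGL n F := by
        apply upper_mem
        intro r s hsr
        show Matrix.transvection j j' c r s = 0
        unfold Matrix.transvection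
        rw [Matrix.add_apply, Matrix.one_apply_ne (ne_of_gt hsr), zero_add, Matrix.single_apply]
        rw [if_neg]
        rintro ⟨rfl, rfl⟩
        exact absurd hjj (not_lt.mpr hsr.le)
      have hcol : ∀ r s : Fin n, ((g * Matrix.GeneralLinearGroup.mkOfDetNeZero _ hdet : GL (Fin n) F) :
          Matrix (Fin n) (Fin n) F) r s = if s = j' then (g : Matrix (Fin n) (Fin n) F) r j' +
            c * (g : Matrix (Fin n) (Fin n) F) r j else (g : Matrix (Fin n) (Fin n) F) r s := by
        intro r s
        have e : ((g * Matrix.GeneralLinearGroup.mkOfDetNeZero _ hdet : GL (Fin n) F) :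
          Matrix (Fin n) (Fin n) F) = (g : Matrix (Fin n) (Fin n) F) * Matrix.transvection j j' c := rfl
        rw [e]
        by_cases hs : s = j'
        · subst hs
          rw [if_pos rfl, Matrix.mul_transvection_apply_same]
        · rw [if_neg hs, Matrix.mul_transvection_apply_of_ne _ _ _ _ hs]
      have hzero : ∀ (r s : Fin n), lead (fun i => (g : Matrix (Fin n) (Fin n) F) i s) < (r : ℕ) →
          (g : Matrix (Fin n) (Fin n) F) r s = 0 := by
        intro r s hlt
        by_contra h0
        have := le_lead (fun i => (g : Matrix (Fin n) (Fin n) F) i s) r h0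
        omega
      have hnew : lead (fun r => ((g * Matrix.GeneralLinearGroup.mkOfDetNeZero _ hdet : GL (Fin n) F) :
          Matrix (Fin n) (Fin n) F) r j') < lead (fun r => (g : Matrix (Fin n) (Fin n) F) r j') := by
        obtain ⟨r, hr1, hr2⟩ := exists_lead _ (col_ne_zero
          (g * Matrix.GeneralLinearGroup.mkOfDetNeZero _ hdet) j')
        rw [← hr1, ← hi1']
        rw [hcol, if_pos rfl] at hr2
        by_contra hcon
        push Not at hcon
        rcases Nat.lt_or_ge (i' : ℕ) (r : ℕ) with hgt | hle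
        · have h1 := hzero r j' (by omega)
          have h2 := hzero r j (by omega)
          rw [h1, h2] at hr2
          simp at hr2
        · have hri : r = i' := Fin.ext (by omega)
          subst hri
          apply hr2
          rw [hc]
          field_simp
          ring
      have hlt : meas ((g * Matrix.GeneralLinearGroup.mkOfDetNeZero _ hdet : GL (Fin n) F) :
          Matrix (Fin n) (Fin n) F) < k := by
        rw [← hk]
        unfold meas
        apply Finset.sum_lt_sum
        · intro s _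
          by_cases hs : s = j'
          · subst hs
            exact hnew.le
          · have : (fun r => ((g * Matrix.GeneralLinearGroup.mkOfDetNeZero _ hdet : GL (Fin n) F) :
                Matrix (Fin n) (Fin n) F) r s) = (fun r => (g : Matrix (Fin n) (Fin n) F) r s) := by
              funext r
              rw [hcol, if_neg hs]
            rw [this]
        · exact ⟨j', Finset.mem_univ _, hnew⟩
      obtain ⟨u1, hu1, hinj1⟩ := ih _ hlt (g * Matrix.GeneralLinearGroup.mkOfDetNeZero _ hdet) rfl
      refine ⟨Matrix.GeneralLinearGroup.mkOfDetNeZero _ hdet * u1, Subgroup.mul_mem _ hu0 hu1, ?_⟩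
      rw [← mul_assoc]
      exact hinj1

theorem bruhat (g : GL (Fin n) F) : ∃ b₁ ∈ upperTriangularGL n F, ∃ w : Equiv.Perm (Fin n),
    ∃ b₂ ∈ upperTriangularGL n F, g = b₁ * pmGL F n w * b₂ := by
  classical
  obtain ⟨u, hu, hinj⟩ := col_reduce _ g rfl
  have hex : ∀ j : Fin n, ∃ i : Fin n,
      (i : ℕ) = lead (fun r => ((g * u : GL (Fin n) F) : Matrix (Fin n) (Fin n) F) r j) ∧
      ((g * u : GL (Fin n) F) : Matrix (Fin n) (Fin n) F) i j ≠ 0 :=
    fun j => exists_lead _ (col_ne_zero (g * u) j)
  choose π hπ1 hπ2 using hex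
  have hπinj : Function.Injective π := by
    intro j j' h
    apply hinj
    show lead _ = lead _
    rw [← hπ1 j, ← hπ1 j', h]
  obtain ⟨w, hw⟩ : ∃ w : Equiv.Perm (Fin n), ∀ j, w j = π j :=
    ⟨Equiv.ofBijective π (Finite.injective_iff_bijective.mp hπinj), fun j => rfl⟩
  obtain ⟨d, hdd⟩ : ∃ d : Fin n → F, ∀ j, d j =
      ((g * u : GL (Fin n) F) : Matrix (Fin n) (Fin n) F) (π j) j := ⟨_, fun j => rfl⟩
  have hd : ∀ j, d j ≠ 0 := fun j => by rw [hdd]; exact hπ2 j
  have hdet : (Matrix.diagonal d).det ≠ 0 := by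
    rw [Matrix.det_diagonal]
    exact Finset.prod_ne_zero_iff.mpr (fun j _ => hd j)
  have hD : Matrix.GeneralLinearGroup.mkOfDetNeZero _ hdet ∈ upperTriangularGL n F := by
    apply upper_mem
    intro i j hji
    show Matrix.diagonal d i j = 0
    exact Matrix.diagonal_apply_ne _ (ne_of_gt hji)
  have hb₁val : ∀ i i' : Fin n,
      ((g * u * (pmGL F n w * Matrix.GeneralLinearGroup.mkOfDetNeZero _ hdet)⁻¹ : GL (Fin n) F) :
        Matrix (Fin n) (Fin n) F) i i' =
      ((g * u : GL (Fin n) F) : Matrix (Fin n) (Fin n) F) i (w.symm i') / d (w.symm i') := by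
    have h1 : (Matrix.of fun i i' => ((g * u : GL (Fin n) F) : Matrix (Fin n) (Fin n) F) i (w.symm i') /
          d (w.symm i')) *
        ((pmGL F n w * Matrix.GeneralLinearGroup.mkOfDetNeZero _ hdet : GL (Fin n) F) :
          Matrix (Fin n) (Fin n) F) = ((g * u : GL (Fin n) F) : Matrix (Fin n) (Fin n) F) := by
      have e : ((pmGL F n w * Matrix.GeneralLinearGroup.mkOfDetNeZero _ hdet : GL (Fin n) F) :
          Matrix (Fin n) (Fin n) F) = pm F w * Matrix.diagonal d := rfl
      rw [e]
      ext i j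
      rw [← Matrix.mul_assoc, Matrix.mul_diagonal, Matrix.mul_apply, Finset.sum_eq_single (w j)]
      · rw [pm_apply, if_pos rfl, mul_one, Matrix.of_apply, Equiv.symm_apply_apply]
        exact div_mul_cancel₀ _ (hd j)
      · intro i' _ hi'
        rw [pm_apply, if_neg hi', mul_zero]
      · intro h
        exact absurd (Finset.mem_univ _) h
    have h3 : ((g * u * (pmGL F n w * Matrix.GeneralLinearGroup.mkOfDetNeZero _ hdet)⁻¹ : GL (Fin n) F) :
          Matrix (Fin n) (Fin n) F) *
        ((pmGL F n w * Matrix.GeneralLinearGroup.mkOfDetNeZero _ hdet : GL (Fin n) F) :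
          Matrix (Fin n) (Fin n) F) = ((g * u : GL (Fin n) F) : Matrix (Fin n) (Fin n) F) := by
      rw [← Units.val_mul, inv_mul_cancel_right]
    have hX : IsUnit ((pmGL F n w * Matrix.GeneralLinearGroup.mkOfDetNeZero _ hdet : GL (Fin n) F) :
          Matrix (Fin n) (Fin n) F) := Units.isUnit _
    have h4 := hX.mul_left_injective (h3.trans h1.symm)
    intro i i'
    have h5 := congrFun (congrFun h4 i) i'
    rw [h5, Matrix.of_apply]
  have hb₁ : g * u * (pmGL F n w * Matrix.GeneralLinearGroup.mkOfDetNeZero _ hdet)⁻¹ ∈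
      upperTriangularGL n F := by
    apply upper_mem
    intro i i' hi
    rw [hb₁val]
    have h0 : ((g * u : GL (Fin n) F) : Matrix (Fin n) (Fin n) F) i (w.symm i') = 0 := by
      by_contra h0
      have h5 := le_lead (fun r => ((g * u : GL (Fin n) F) : Matrix (Fin n) (Fin n) F) r (w.symm i')) i h0
      have h6 := hπ1 (w.symm i')
      have h7 : π (w.symm i') = i' := by rw [← hw]; exact Equiv.apply_symm_apply w i'
      rw [h7] at h6
      have : (i' : ℕ) < i := hi
      omega
    rw [h0, zero_div]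
  refine ⟨_, hb₁, w, Matrix.GeneralLinearGroup.mkOfDetNeZero _ hdet * u⁻¹,
    Subgroup.mul_mem _ hD (Subgroup.inv_mem _ hu), ?_⟩
  group

end PM



section Inv
variable {F : Type*} [Field F] {n : ℕ}

theorem rk_le (lν lμ : Fin n → ℕ) (a b : ℕ) (p q M : Matrix (Fin n) (Fin n) F)
    (hp : p.BlockTriangular lν) (hq : q.BlockTriangular lμ) :
    (Matrix.diagonal (fun i => if a ≤ lν i then (1 : F) else 0) * (p * M * q) *
        Matrix.diagonal (fun j => if lμ j ≤ b then (1 : F) else 0)).rank ≤
    (Matrix.diagonal (fun i => if a ≤ lν i then (1 : F) else 0) * M *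
        Matrix.diagonal (fun j => if lμ j ≤ b then (1 : F) else 0)).rank := by
  have h1 : Matrix.diagonal (fun i => if a ≤ lν i then (1 : F) else 0) * p =
      Matrix.diagonal (fun i => if a ≤ lν i then (1 : F) else 0) * p *
        Matrix.diagonal (fun i => if a ≤ lν i then (1 : F) else 0) := by
    ext i i'
    rw [Matrix.mul_diagonal, Matrix.diagonal_mul]
    by_cases h' : a ≤ lν i'
    · rw [if_pos h', mul_one]
    · rw [if_neg h', mul_zero]
      by_cases h : a ≤ lν i
      · rw [hp (show lν i' < lν i by omega), mul_zero]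
      · rw [if_neg h, zero_mul]
  have h2 : q * Matrix.diagonal (fun j => if lμ j ≤ b then (1 : F) else 0) =
      Matrix.diagonal (fun j => if lμ j ≤ b then (1 : F) else 0) * q *
        Matrix.diagonal (fun j => if lμ j ≤ b then (1 : F) else 0) := by
    ext j' j
    rw [Matrix.mul_diagonal, Matrix.mul_diagonal, Matrix.diagonal_mul]
    by_cases h' : lμ j' ≤ b
    · rw [if_pos h', one_mul]
    · rw [if_neg h', zero_mul, zero_mul]
      by_cases h : lμ j ≤ b
      · rw [hq (show lμ j < lμ j' by omega), zero_mul]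
      · rw [if_neg h, mul_zero]
  have h3 : Matrix.diagonal (fun i => if a ≤ lν i then (1 : F) else 0) * (p * M * q) *
        Matrix.diagonal (fun j => if lμ j ≤ b then (1 : F) else 0) =
      (Matrix.diagonal (fun i => if a ≤ lν i then (1 : F) else 0) * p) *
        (Matrix.diagonal (fun i => if a ≤ lν i then (1 : F) else 0) * M *
          Matrix.diagonal (fun j => if lμ j ≤ b then (1 : F) else 0)) *
        (q * Matrix.diagonal (fun j => if lμ j ≤ b then (1 : F) else 0)) := by
    calc Matrix.diagonal (fun i => if a ≤ lν i then (1 : F) else 0) * (p * M * q) *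
          Matrix.diagonal (fun j => if lμ j ≤ b then (1 : F) else 0)
        = (Matrix.diagonal (fun i => if a ≤ lν i then (1 : F) else 0) * p) * M *
            (q * Matrix.diagonal (fun j => if lμ j ≤ b then (1 : F) else 0)) := by
          simp only [Matrix.mul_assoc]
      _ = (Matrix.diagonal (fun i => if a ≤ lν i then (1 : F) else 0) * p *
            Matrix.diagonal (fun i => if a ≤ lν i then (1 : F) else 0)) * M *
            (Matrix.diagonal (fun j => if lμ j ≤ b then (1 : F) else 0) * q *
              Matrix.diagonal (fun j => if lμ j ≤ b then (1 : F) else 0)) := by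
          rw [← h1, ← h2]
      _ = _ := by
          simp only [Matrix.mul_assoc]
  rw [h3]
  exact (Matrix.rank_mul_le_left _ _).trans (Matrix.rank_mul_le_right _ _)

/-- threshold count -/
def cnt (lν lμ : Fin n → ℕ) (w : Equiv.Perm (Fin n)) (a b : ℕ) : ℕ :=
  (Finset.univ.filter (fun j : Fin n => a ≤ lν (w j) ∧ lμ j ≤ b)).card

theorem pm_apply' (w : Equiv.Perm (Fin n)) (i j : Fin n) :
    pm F w i j = if i = w j then 1 else 0 := rfl

theorem rk_pm (lν lμ : Fin n → ℕ) (a b : ℕ) (w : Equiv.Perm (Fin n)) :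
    (Matrix.diagonal (fun i => if a ≤ lν i then (1 : F) else 0) * pm F w *
        Matrix.diagonal (fun j => if lμ j ≤ b then (1 : F) else 0)).rank = cnt lν lμ w a b := by
  classical
  have h1 : Matrix.diagonal (fun i => if a ≤ lν i then (1 : F) else 0) * pm F w *
        Matrix.diagonal (fun j => if lμ j ≤ b then (1 : F) else 0) =
      pm F w * Matrix.diagonal (fun j => (if a ≤ lν (w j) then (1 : F) else 0) *
        (if lμ j ≤ b then (1 : F) else 0)) := by
    ext i j
    rw [Matrix.mul_diagonal, Matrix.mul_diagonal, Matrix.diagonal_mul, pm_apply']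
    by_cases h : i = w j
    · subst h
      rw [if_pos rfl]
      ring
    · rw [if_neg h]
      ring
  have hu : IsUnit (pm F w).det :=
    (Matrix.isUnit_iff_isUnit_det _).mp (pmGL F n w).isUnit
  rw [h1, Matrix.rank_mul_eq_right_of_isUnit_det _ _ hu, Matrix.rank_diagonal, Fintype.card_subtype]
  unfold cnt
  congr 1
  apply Finset.filter_congr
  intro j _
  by_cases h : a ≤ lν (w j) <;> by_cases h' : lμ j ≤ b <;> simp [h, h']

theorem card_split {J : Type*} [Fintype J] [DecidableEq J] (P Q R : J → Prop) [DecidablePred P]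
    [DecidablePred Q] [DecidablePred R] (h1 : ∀ j, P j ↔ (Q j ∨ R j)) (h2 : ∀ j, ¬ (Q j ∧ R j)) :
    (Finset.univ.filter P).card = (Finset.univ.filter Q).card + (Finset.univ.filter R).card := by
  rw [← Finset.card_union_of_disjoint]
  · congr 1
    ext j
    simp only [Finset.mem_filter, Finset.mem_univ, true_and, Finset.mem_union]
    exact h1 j
  · rw [Finset.disjoint_filter]
    intro j _ hq hr
    exact h2 j ⟨hq, hr⟩

theorem fib_eq {J : Type*} [Fintype J] [DecidableEq J] (x x' y : J → ℕ)
    (h : ∀ a b, (Finset.univ.filter (fun j => a ≤ x j ∧ y j ≤ b)).card =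
      (Finset.univ.filter (fun j => a ≤ x' j ∧ y j ≤ b)).card) :
    ∀ a b, (Finset.univ.filter (fun j => x j = a ∧ y j = b)).card =
      (Finset.univ.filter (fun j => x' j = a ∧ y j = b)).card := by
  have s1 : ∀ (z : J → ℕ) (a b : ℕ), (Finset.univ.filter (fun j => a ≤ z j ∧ y j ≤ b)).card =
      (Finset.univ.filter (fun j => z j = a ∧ y j ≤ b)).card +
        (Finset.univ.filter (fun j => a + 1 ≤ z j ∧ y j ≤ b)).card := by
    intro z a b
    apply card_split
    · intro j; omega
    · intro j; omega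
  have e1 : ∀ a b, (Finset.univ.filter (fun j => x j = a ∧ y j ≤ b)).card =
      (Finset.univ.filter (fun j => x' j = a ∧ y j ≤ b)).card := by
    intro a b
    have := s1 x a b
    have := s1 x' a b
    have := h a b
    have := h (a + 1) b
    omega
  have s2 : ∀ (z : J → ℕ) (a b : ℕ), (Finset.univ.filter (fun j => z j = a ∧ y j ≤ b + 1)).card =
      (Finset.univ.filter (fun j => z j = a ∧ y j = b + 1)).card +
        (Finset.univ.filter (fun j => z j = a ∧ y j ≤ b)).card := by
    intro z a b
    apply card_split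
    · intro j; omega
    · intro j; omega
  have s3 : ∀ (z : J → ℕ) (a : ℕ), (Finset.univ.filter (fun j => z j = a ∧ y j = 0)).card =
      (Finset.univ.filter (fun j => z j = a ∧ y j ≤ 0)).card := by
    intro z a
    congr 1
    apply Finset.filter_congr
    intro j _
    omega
  intro a b
  rcases b with _ | b
  · rw [s3 x a, s3 x' a]
    exact e1 a 0
  · have := s2 x a b
    have := s2 x' a b
    have := e1 a (b + 1)
    have := e1 a b
    omega

theorem exists_perm_of_fib {J K : Type*} [Fintype J] [DecidableEq J] [DecidableEq K] (f f' : J → K)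
    (h : ∀ k, (Finset.univ.filter (fun j => f j = k)).card =
      (Finset.univ.filter (fun j => f' j = k)).card) :
    ∃ τ : Equiv.Perm J, ∀ j, f (τ j) = f' j := by
  have he : ∀ k, Nonempty ({j // f' j = k} ≃ {j // f j = k}) := by
    intro k
    apply Fintype.card_eq.mp
    rw [Fintype.card_subtype, Fintype.card_subtype, h k]
  have e : ∀ k, {j // f' j = k} ≃ {j // f j = k} := fun k => (he k).some
  refine ⟨(Equiv.sigmaFiberEquiv f').symm.trans ((Equiv.sigmaCongrRight e).trans
    (Equiv.sigmaFiberEquiv f)), ?_⟩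
  intro j
  exact (e (f' j) ⟨j, rfl⟩).2

theorem compLabel_mono (μ : Fin n → ℕ) : Monotone (compLabel μ) := by
  intro i i' h
  unfold compLabel
  apply Finset.card_le_card
  intro j hj
  rw [Finset.mem_filter] at hj ⊢
  exact ⟨hj.1, hj.2.trans h⟩

theorem upper_le_parabolic (μ : Fin n → ℕ) : upperTriangularGL n F ≤ parabolicGL n F μ := by
  intro g hg i j hij
  apply hg
  show j < i
  by_contra hcon
  push Not at hcon
  exact absurd (compLabel_mono μ hcon) (not_le.mpr hij)

theorem pm_mem_parabolic (μ : Fin n → ℕ) (σ : Equiv.Perm (Fin n)) (hσ : σ ∈ youngSubgroup μ) :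
    pmGL F n σ ∈ parabolicGL n F μ := by
  intro i j hij
  show pm F σ i j = 0
  rw [pm_apply', if_neg]
  rintro rfl
  have h1 : compLabel μ (σ j) = compLabel μ j := hσ j
  rw [h1] at hij
  exact lt_irrefl _ hij

theorem cnt_le (ν μ : Fin n → ℕ) (w w' : Equiv.Perm (Fin n)) (p q : GL (Fin n) F)
    (hp : p ∈ parabolicGL n F ν) (hq : q ∈ parabolicGL n F μ)
    (h : pmGL F n w' = p * pmGL F n w * q) (a b : ℕ) :
    cnt (compLabel ν) (compLabel μ) w' a b ≤ cnt (compLabel ν) (compLabel μ) w a b := by
  rw [← rk_pm (F := F), ← rk_pm (F := F)]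
  have h1 : pm F w' = (p : Matrix (Fin n) (Fin n) F) * pm F w * (q : Matrix (Fin n) (Fin n) F) :=
    congrArg (fun x : GL (Fin n) F => (x : Matrix (Fin n) (Fin n) F)) h
  rw [h1]
  exact rk_le _ _ a b _ _ _ hp hq

theorem dc_of_pm (ν μ : Fin n → ℕ) (w w' : Equiv.Perm (Fin n)) (p q : GL (Fin n) F)
    (hp : p ∈ parabolicGL n F ν) (hq : q ∈ parabolicGL n F μ)
    (h : pmGL F n w' = p * pmGL F n w * q) :
    (dcRel (youngSubgroup ν) (youngSubgroup μ)).r w w' := by
  classical
  have h' : pmGL F n w = p⁻¹ * pmGL F n w' * q⁻¹ := by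
    rw [h]; group
  have hc : ∀ a b, cnt (compLabel ν) (compLabel μ) w a b = cnt (compLabel ν) (compLabel μ) w' a b :=
    fun a b => le_antisymm (cnt_le ν μ w' w p⁻¹ q⁻¹ (Subgroup.inv_mem _ hp) (Subgroup.inv_mem _ hq) h' a b)
      (cnt_le ν μ w w' p q hp hq h a b)
  have hf := fib_eq (fun j => compLabel ν (w j)) (fun j => compLabel ν (w' j)) (compLabel μ) hc
  obtain ⟨τ, hτ⟩ := exists_perm_of_fib (fun j : Fin n => (compLabel ν (w j), compLabel μ j))
    (fun j : Fin n => (compLabel ν (w' j), compLabel μ j)) (by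
      rintro ⟨a, b⟩
      have := hf a b
      simp only [Prod.mk.injEq]
      exact this)
  have hτ1 : ∀ j, compLabel ν (w (τ j)) = compLabel ν (w' j) := fun j => congrArg Prod.fst (hτ j)
  have hτ2 : ∀ j, compLabel μ (τ j) = compLabel μ j := fun j => congrArg Prod.snd (hτ j)
  refine ⟨(w * τ * w'⁻¹)⁻¹, Subgroup.inv_mem _ ?_, τ, hτ2, by group⟩
  intro x
  show compLabel ν (w (τ (w'⁻¹ x))) = compLabel ν x
  rw [hτ1]
  simp

variable [Fintype F] [DecidableEq F]

theorem flag_inner (ν μ : Fin n → ℕ) :
    (Nat.card (GL (Fin n) F) : ℂ)⁻¹ * ∑ g : GL (Fin n) F,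
        fixedPointCharacter (parabolicGL n F ν) g * fixedPointCharacter (parabolicGL n F μ) g =
      (Nat.card (Equiv.Perm (Fin n)) : ℂ)⁻¹ * ∑ σ : Equiv.Perm (Fin n),
        fixedPointCharacter (youngSubgroup ν) σ * fixedPointCharacter (youngSubgroup μ) σ := by
  rw [burnside_dc, burnside_dc]
  congr 1
  symm
  refine Nat.card_congr (Equiv.ofBijective
    (Quotient.lift (fun w => (Quotient.mk (dcRel (parabolicGL n F ν) (parabolicGL n F μ))
      (pmGL F n w))) ?_) ⟨?_, ?_⟩)
  · rintro w w' ⟨a, ha, b, hb, rfl⟩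
    apply Quotient.sound
    exact ⟨pmGL F n a, pm_mem_parabolic ν a ha, pmGL F n b, pm_mem_parabolic μ b hb, by
      rw [map_mul, map_mul]⟩
  · intro x y
    refine Quotient.inductionOn₂ x y (fun w w' h => ?_)
    obtain ⟨p, hp, q, hq, h1⟩ := Quotient.exact h
    exact Quotient.sound (dc_of_pm ν μ w w' p q hp hq h1)
  · intro o
    induction o using Quotient.inductionOn with
    | _ g =>
      obtain ⟨b₁, hb₁, w, b₂, hb₂, rfl⟩ := bruhat g
      refine ⟨Quotient.mk _ w, ?_⟩
      apply Quotient.sound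
      exact ⟨b₁, upper_le_parabolic ν hb₁, b₂, upper_le_parabolic μ hb₂, rfl⟩

end Inv


end Cfsg.Agent.Lib.helper18.GLFlag
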