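import Mathlib

set_option autoImplicit false

namespace Cfsg.Agent.Lib.helper18.JT

variable {n : ℕ}

/-- complete homogeneous symmetric polynomial -/
noncomputable def hh (n m : ℕ) : MvPolynomial (Fin n) ℤ :=
  ∑ c ∈ (Finset.univ : Finset (Fin n)).finsuppAntidiag m, MvPolynomial.monomial c 1

/-- geometric series -/
noncomputable def geom (l : Fin n) : PowerSeries (MvPolynomial (Fin n) ℤ) :=
  PowerSeries.mk (fun m => (MvPolynomial.X l) ^ m)

theorem geom_mul (l : Fin n) :
    geom l * (1 - PowerSeries.C (MvPolynomial.X l : MvPolynomial (Fin n) ℤ) * PowerSeries.X) = 1 := by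
  have h1 : geom l = PowerSeries.rescale (MvPolynomial.X l : MvPolynomial (Fin n) ℤ)
      (PowerSeries.mk 1) := by
    ext m
    simp [geom, PowerSeries.coeff_rescale]
  have h2 := congrArg (PowerSeries.rescale (MvPolynomial.X l : MvPolynomial (Fin n) ℤ))
    (PowerSeries.mk_one_mul_one_sub_eq_one (MvPolynomial (Fin n) ℤ))
  rw [map_mul, map_sub, map_one, PowerSeries.rescale_X, ← h1] at h2
  exact h2

theorem mono_prod (c : Fin n →₀ ℕ) :
    ∏ i : Fin n, (MvPolynomial.X i : MvPolynomial (Fin n) ℤ) ^ c i = MvPolynomial.monomial c 1 := by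
  rw [← MvPolynomial.prod_X_pow_eq_monomial]
  symm
  apply Finset.prod_subset (Finset.subset_univ _)
  intro i _ hi
  rw [Finsupp.notMem_support_iff.mp hi, pow_zero]

theorem coeff_Hs (m : ℕ) : PowerSeries.coeff m (∏ l : Fin n, geom l) = hh n m := by
  rw [PowerSeries.coeff_prod]
  unfold hh
  apply Finset.sum_congr rfl
  intro c _
  have h1 : ∀ i : Fin n, PowerSeries.coeff (c i) (geom i) =
      (MvPolynomial.X i : MvPolynomial (Fin n) ℤ) ^ (c i) := fun i => by simp [geom]
  rw [Finset.prod_congr rfl (fun i _ => h1 i), mono_prod]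

theorem hh_zero : hh n 0 = 1 := by
  unfold hh
  rw [Finset.finsuppAntidiag_zero, Finset.sum_singleton]
  rfl

noncomputable def Ej (j : Fin n) : Polynomial (MvPolynomial (Fin n) ℤ) :=
  ∏ l ∈ Finset.univ.erase j, (1 - Polynomial.C (MvPolynomial.X l) * Polynomial.X)

theorem Ej_deg (j : Fin n) : (Ej j).natDegree < n := by
  unfold Ej
  refine lt_of_le_of_lt (Polynomial.natDegree_prod_le _ _) ?_
  have h1 : ∀ l ∈ Finset.univ.erase j,
      (1 - Polynomial.C (MvPolynomial.X l : MvPolynomial (Fin n) ℤ) * Polynomial.X).natDegree ≤ 1 := by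
    intro l _
    compute_degree
  refine lt_of_le_of_lt (Finset.sum_le_sum h1) ?_
  rw [Finset.sum_const, Finset.card_erase_of_mem (Finset.mem_univ j), Finset.card_univ,
    Fintype.card_fin]
  have := j.2
  simp
  omega

theorem Hs_Ej (j : Fin n) :
    (∏ l : Fin n, geom l) * ((Ej j : Polynomial (MvPolynomial (Fin n) ℤ)) :
      PowerSeries (MvPolynomial (Fin n) ℤ)) = geom j := by
  have h1 : ((Ej j : Polynomial (MvPolynomial (Fin n) ℤ)) : PowerSeries (MvPolynomial (Fin n) ℤ)) =
      ∏ l ∈ Finset.univ.erase j,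
        (1 - PowerSeries.C (MvPolynomial.X l : MvPolynomial (Fin n) ℤ) * PowerSeries.X) := by
    unfold Ej
    have := map_prod (Polynomial.coeToPowerSeries.ringHom (R := MvPolynomial (Fin n) ℤ))
      (fun l : Fin n => (1 - Polynomial.C (MvPolynomial.X l : MvPolynomial (Fin n) ℤ) * Polynomial.X))
      (Finset.univ.erase j)
    simp only [Polynomial.coeToPowerSeries.ringHom_apply] at this
    rw [this]
    apply Finset.prod_congr rfl
    intro l _
    simp
  have h2 : (∏ l : Fin n, geom l) * ∏ l : Fin n,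
      (1 - PowerSeries.C (MvPolynomial.X l : MvPolynomial (Fin n) ℤ) * PowerSeries.X) = 1 := by
    rw [← Finset.prod_mul_distrib]
    exact Finset.prod_eq_one (fun l _ => geom_mul l)
  have h3 := Finset.mul_prod_erase Finset.univ
    (fun l : Fin n => (1 - PowerSeries.C (MvPolynomial.X l : MvPolynomial (Fin n) ℤ) * PowerSeries.X))
    (Finset.mem_univ j)
  rw [h1]
  calc (∏ l : Fin n, geom l) * ∏ l ∈ Finset.univ.erase j,
          (1 - PowerSeries.C (MvPolynomial.X l : MvPolynomial (Fin n) ℤ) * PowerSeries.X)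
      = ((∏ l : Fin n, geom l) * ∏ l ∈ Finset.univ.erase j,
          (1 - PowerSeries.C (MvPolynomial.X l : MvPolynomial (Fin n) ℤ) * PowerSeries.X)) *
          (geom j * (1 - PowerSeries.C (MvPolynomial.X j : MvPolynomial (Fin n) ℤ) * PowerSeries.X)) := by
        rw [geom_mul, mul_one]
    _ = ((∏ l : Fin n, geom l) * ((1 - PowerSeries.C (MvPolynomial.X j : MvPolynomial (Fin n) ℤ) * PowerSeries.X) *
          ∏ l ∈ Finset.univ.erase j,
            (1 - PowerSeries.C (MvPolynomial.X l : MvPolynomial (Fin n) ℤ) * PowerSeries.X))) * geom j := by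
        ring
    _ = geom j := by rw [h3, h2, one_mul]

theorem J1 (j : Fin n) (m : ℕ) :
    ∑ k : Fin n, (if (k : ℕ) ≤ m then hh n (m - k) else 0) * (Ej j).coeff k =
      (MvPolynomial.X j) ^ m := by
  have h := congrArg (PowerSeries.coeff m) (Hs_Ej j)
  rw [PowerSeries.coeff_mul] at h
  simp only [coeff_Hs, Polynomial.coeff_coe] at h
  rw [Finset.Nat.sum_antidiagonal_eq_sum_range_succ (fun p q => hh n p * (Ej j).coeff q)] at h
  have h4 : PowerSeries.coeff m (geom j) = (MvPolynomial.X j : MvPolynomial (Fin n) ℤ) ^ m := by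
    simp [geom]
  rw [h4] at h
  rw [← h, Fin.sum_univ_eq_sum_range (fun k => (if k ≤ m then hh n (m - k) else 0) * (Ej j).coeff k) n]
  have h5 := Finset.sum_range_reflect (fun k => hh n k * (Ej j).coeff (m - k)) (m + 1)
  rw [← h5]
  have e1 : ∑ k ∈ Finset.range n, (if k ≤ m then hh n (m - k) else 0) * (Ej j).coeff k =
      ∑ k ∈ Finset.range (max n (m + 1)), (if k ≤ m then hh n (m - k) else 0) * (Ej j).coeff k := by
    apply Finset.sum_subset
    · intro k hk
      rw [Finset.mem_range] at hk ⊢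
      exact lt_of_lt_of_le hk (le_max_left _ _)
    · intro k _ hk
      rw [Finset.mem_range, not_lt] at hk
      rw [Polynomial.coeff_eq_zero_of_natDegree_lt (lt_of_lt_of_le (Ej_deg j) hk), mul_zero]
  have e2 : ∑ k ∈ Finset.range (m + 1), hh n (m + 1 - 1 - k) * (Ej j).coeff (m - (m + 1 - 1 - k)) =
      ∑ k ∈ Finset.range (max n (m + 1)), (if k ≤ m then hh n (m - k) else 0) * (Ej j).coeff k := by
    have e3 : ∑ k ∈ Finset.range (m + 1), hh n (m + 1 - 1 - k) * (Ej j).coeff (m - (m + 1 - 1 - k)) =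
        ∑ k ∈ Finset.range (m + 1), (if k ≤ m then hh n (m - k) else 0) * (Ej j).coeff k := by
      apply Finset.sum_congr rfl
      intro k hk
      rw [Finset.mem_range] at hk
      have a1 : m + 1 - 1 - k = m - k := by omega
      have a2 : m - (m - k) = k := by omega
      rw [if_pos (by omega), a1, a2]
    rw [e3]
    apply Finset.sum_subset
    · intro k hk
      rw [Finset.mem_range] at hk ⊢
      exact lt_of_lt_of_le hk (le_max_right _ _)
    · intro k _ hk
      rw [Finset.mem_range, not_lt] at hk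
      rw [if_neg (by omega), zero_mul]
  rw [e1, e2]

noncomputable def Hmat (a : Fin n → ℕ) : Matrix (Fin n) (Fin n) (MvPolynomial (Fin n) ℤ) :=
  fun i k => if (k : ℕ) ≤ a i then hh n (a i - k) else 0
noncomputable def Emat (n : ℕ) : Matrix (Fin n) (Fin n) (MvPolynomial (Fin n) ℤ) :=
  fun k j => (Ej j).coeff k
noncomputable def Amat (a : Fin n → ℕ) : Matrix (Fin n) (Fin n) (MvPolynomial (Fin n) ℤ) :=
  fun i j => (MvPolynomial.X j) ^ (a i)

theorem H_mul_E (a : Fin n → ℕ) : Hmat a * Emat n = Amat a := by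
  refine Matrix.ext (fun i j => ?_)
  rw [Matrix.mul_apply]
  exact J1 j (a i)

theorem det_Hdelta : (Hmat (fun i : Fin n => (i : ℕ))).det = 1 := by
  rw [Matrix.det_of_isLowerTriangular]
  · apply Finset.prod_eq_one
    intro i _
    show (if (i : ℕ) ≤ (i : ℕ) then hh n ((i : ℕ) - (i : ℕ)) else 0) = 1
    rw [if_pos le_rfl, Nat.sub_self, hh_zero]
  · intro i k hik
    have hik' : i < k := hik
    show (if (k : ℕ) ≤ (i : ℕ) then hh n ((i : ℕ) - (k : ℕ)) else 0) = 0
    rw [if_neg (by have : (i : ℕ) < k := hik'; omega)]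

theorem jacobi_trudi (a : Fin n → ℕ) :
    (Amat (fun i : Fin n => (i : ℕ))).det * (Hmat a).det = (Amat a).det := by
  rw [← H_mul_E a, Matrix.det_mul, ← H_mul_E (fun i : Fin n => (i : ℕ)), Matrix.det_mul, det_Hdelta]
  ring

/-- number of tables with given margins -/
noncomputable def MM (α β : Fin n → ℕ) : ℕ :=
  ((Fintype.piFinset (fun a : Fin n => (Finset.univ : Finset (Fin n)).finsuppAntidiag (α a))).filter
    (fun C => ∑ a, C a = Finsupp.equivFunOnFinite.symm β)).card

theorem coeff_prod_hh (α β : Fin n → ℕ) :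
    MvPolynomial.coeff (Finsupp.equivFunOnFinite.symm β) (∏ a : Fin n, hh n (α a)) = (MM α β : ℤ) := by
  classical
  unfold hh MM
  rw [Finset.prod_univ_sum, MvPolynomial.coeff_sum, Finset.card_filter]
  push_cast
  apply Finset.sum_congr rfl
  intro C _
  rw [← MvPolynomial.monomial_sum_one, MvPolynomial.coeff_monomial]

theorem det_A (a : Fin n → ℕ) : (Amat a).det = ∑ σ : Equiv.Perm (Fin n),
    MvPolynomial.C ((Equiv.Perm.sign σ : ℤ)) *
      MvPolynomial.monomial (Finsupp.equivFunOnFinite.symm (fun i => a (σ i))) 1 := by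
  rw [Matrix.det_apply']
  apply Finset.sum_congr rfl
  intro σ _
  rw [← eq_intCast (MvPolynomial.C (σ := Fin n) (R := ℤ))]
  congr 1
  exact mono_prod (Finsupp.equivFunOnFinite.symm (fun i => a (σ i)))

theorem det_H (a : Fin n → ℕ) : (Hmat a).det = ∑ κ : Equiv.Perm (Fin n),
    MvPolynomial.C ((Equiv.Perm.sign κ : ℤ)) *
      (if ∀ i, ((κ i : Fin n) : ℕ) ≤ a i then ∏ i, hh n (a i - (κ i : ℕ)) else 0) := by
  rw [← Matrix.det_transpose, Matrix.det_apply']
  apply Finset.sum_congr rfl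
  intro κ _
  rw [← eq_intCast (MvPolynomial.C (σ := Fin n) (R := ℤ))]
  congr 1
  show ∏ i, (if ((κ i : Fin n) : ℕ) ≤ a i then hh n (a i - (κ i : ℕ)) else 0) = _
  rw [Finset.prod_ite_zero]
  simp

theorem CI (a b : Fin n → ℕ) :
    ∑ κ' : Equiv.Perm (Fin n), ∑ κ : Equiv.Perm (Fin n),
      (if (∀ i, ((κ' i : Fin n) : ℕ) ≤ b i) then (if (∀ i, ((κ i : Fin n) : ℕ) ≤ a i) then
        ((Equiv.Perm.sign κ' : ℤ) * (Equiv.Perm.sign κ : ℤ)) *
          (MM (fun i => a i - (κ i : ℕ)) (fun i => b i - (κ' i : ℕ)) : ℤ) else 0) else 0) =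
      ∑ σ : Equiv.Perm (Fin n), if (fun i => a (σ i)) = b then (Equiv.Perm.sign σ : ℤ) else 0 := by
  classical
  have h := congrArg (MvPolynomial.coeff (Finsupp.equivFunOnFinite.symm b)) (jacobi_trudi a)
  rw [det_A, det_A, det_H, Finset.sum_mul, MvPolynomial.coeff_sum, MvPolynomial.coeff_sum] at h
  have hR : ∀ σ : Equiv.Perm (Fin n), MvPolynomial.coeff (Finsupp.equivFunOnFinite.symm b)
      (MvPolynomial.C ((Equiv.Perm.sign σ : ℤ)) *
        MvPolynomial.monomial (Finsupp.equivFunOnFinite.symm (fun i => a (σ i))) 1) =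
      if (fun i => a (σ i)) = b then (Equiv.Perm.sign σ : ℤ) else 0 := by
    intro σ
    rw [MvPolynomial.coeff_C_mul, MvPolynomial.coeff_monomial]
    by_cases hab : (fun i => a (σ i)) = b
    · rw [if_pos hab, if_pos (by rw [hab]), mul_one]
    · rw [if_neg hab, if_neg (fun h' => hab (Finsupp.equivFunOnFinite.symm.injective h')), mul_zero]
  have hL : ∀ κ' : Equiv.Perm (Fin n), MvPolynomial.coeff (Finsupp.equivFunOnFinite.symm b)
      (MvPolynomial.C ((Equiv.Perm.sign κ' : ℤ)) *
        MvPolynomial.monomial (Finsupp.equivFunOnFinite.symm (fun i : Fin n => ((κ' i : Fin n) : ℕ))) 1 *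
        ∑ κ : Equiv.Perm (Fin n), MvPolynomial.C ((Equiv.Perm.sign κ : ℤ)) *
          (if ∀ i, ((κ i : Fin n) : ℕ) ≤ a i then ∏ i, hh n (a i - (κ i : ℕ)) else 0)) =
      ∑ κ : Equiv.Perm (Fin n),
      (if (∀ i, ((κ' i : Fin n) : ℕ) ≤ b i) then (if (∀ i, ((κ i : Fin n) : ℕ) ≤ a i) then
        ((Equiv.Perm.sign κ' : ℤ) * (Equiv.Perm.sign κ : ℤ)) *
          (MM (fun i => a i - (κ i : ℕ)) (fun i => b i - (κ' i : ℕ)) : ℤ) else 0) else 0) := by
    intro κ'
    rw [MvPolynomial.C_mul_monomial, MvPolynomial.coeff_monomial_mul']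
    have hle : (Finsupp.equivFunOnFinite.symm (fun i : Fin n => ((κ' i : Fin n) : ℕ)) ≤
        Finsupp.equivFunOnFinite.symm b) ↔ ∀ i, ((κ' i : Fin n) : ℕ) ≤ b i := by
      rw [Finsupp.le_def]
      rfl
    by_cases hv : ∀ i, ((κ' i : Fin n) : ℕ) ≤ b i
    · rw [if_pos (hle.mpr hv), MvPolynomial.coeff_sum, Finset.mul_sum]
      apply Finset.sum_congr rfl
      intro κ _
      rw [if_pos hv, MvPolynomial.coeff_C_mul]
      have hsub : Finsupp.equivFunOnFinite.symm b -
          Finsupp.equivFunOnFinite.symm (fun i : Fin n => ((κ' i : Fin n) : ℕ)) =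
          Finsupp.equivFunOnFinite.symm (fun i => b i - (κ' i : ℕ)) := by
        ext i
        rfl
      by_cases hv2 : ∀ i, ((κ i : Fin n) : ℕ) ≤ a i
      · rw [if_pos hv2, if_pos hv2, hsub, coeff_prod_hh]
        ring
      · rw [if_neg hv2, if_neg hv2]
        simp
    · rw [if_neg (fun h' => hv (hle.mp h'))]
      symm
      apply Finset.sum_eq_zero
      intro κ _
      rw [if_neg hv]
  rw [Finset.sum_congr rfl (fun κ' _ => hL κ'), Finset.sum_congr rfl (fun σ _ => hR σ)] at h
  exact h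

theorem strictMono_perm_eq_one (σ : Equiv.Perm (Fin n)) (h : StrictMono σ) : σ = 1 := by
  have e : (StrictMono.orderIsoOfSurjective σ h σ.surjective) = OrderIso.refl (Fin n) :=
    Subsingleton.elim _ _
  ext i
  have := congrArg (fun f : Fin n ≃o Fin n => (f i : ℕ)) e
  exact this

theorem CI_strict (a b : Fin n → ℕ) (ha : StrictMono a) (hb : StrictMono b) :
    ∑ κ' : Equiv.Perm (Fin n), ∑ κ : Equiv.Perm (Fin n),
      (if (∀ i, ((κ' i : Fin n) : ℕ) ≤ b i) then (if (∀ i, ((κ i : Fin n) : ℕ) ≤ a i) then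
        ((Equiv.Perm.sign κ' : ℤ) * (Equiv.Perm.sign κ : ℤ)) *
          (MM (fun i => a i - (κ i : ℕ)) (fun i => b i - (κ' i : ℕ)) : ℤ) else 0) else 0) =
      if a = b then 1 else 0 := by
  rw [CI]
  have key : ∀ σ : Equiv.Perm (Fin n), (fun i => a (σ i)) = b → σ = 1 := by
    intro σ h
    apply strictMono_perm_eq_one
    intro i j hij
    have h1 := hb hij
    rw [← h] at h1
    exact ha.lt_iff_lt.mp h1
  by_cases hab : a = b
  · subst hab
    rw [if_pos rfl, Finset.sum_eq_single 1]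
    · simp
    · intro σ _ hσ
      rw [if_neg (fun h => hσ (key σ h))]
    · intro h
      exact absurd (Finset.mem_univ _) h
  · rw [if_neg hab]
    apply Finset.sum_eq_zero
    intro σ _
    rw [if_neg]
    intro h
    apply hab
    rw [← h, key σ h]
    rfl

end Cfsg.Agent.Lib.helper18.JT
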