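import Mathlib
import Cfsg.Agent.S2420
import Cfsg.Agent.Lib.helper18.GLFlag
import Cfsg.Agent.Lib.helper18.JT

set_option autoImplicit false

namespace Cfsg.Agent.Lib.helper18.GLFlag
open Cfsg
open Cfsg.Agent.Lib.helper18.JT
open scoped MatrixGroups

variable {n : ℕ}

/-- the table of a permutation -/
def tb (α β : Fin n → ℕ) (w : Equiv.Perm (Fin n)) (a b : Fin n) : ℕ :=
  (Finset.univ.filter (fun j : Fin n => compLabel α (w j) = a ∧ compLabel β j = b)).card

theorem dc_of_fib (ν μ : Fin n → ℕ) (w w' : Equiv.Perm (Fin n))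
    (hf : ∀ a b : ℕ, (Finset.univ.filter (fun j : Fin n => compLabel ν (w j) = a ∧ compLabel μ j = b)).card =
      (Finset.univ.filter (fun j : Fin n => compLabel ν (w' j) = a ∧ compLabel μ j = b)).card) :
    (dcRel (youngSubgroup ν) (youngSubgroup μ)).r w w' := by
  classical
  obtain ⟨τ, hτ⟩ := exists_perm_of_fib (fun j : Fin n => (compLabel ν (w j), compLabel μ j))
    (fun j : Fin n => (compLabel ν (w' j), compLabel μ j)) (by
      rintro ⟨a, b⟩
      have := hf a b
      simp only [Prod.mk.injEq]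
      exact this)
  have hτ1 : ∀ j, compLabel ν (w (τ j)) = compLabel ν (w' j) := fun j => congrArg Prod.fst (hτ j)
  have hτ2 : ∀ j, compLabel μ (τ j) = compLabel μ j := fun j => congrArg Prod.snd (hτ j)
  refine ⟨(w * τ * w'⁻¹)⁻¹, Subgroup.inv_mem _ ?_, τ, hτ2, by group⟩
  intro x
  show compLabel ν (w (τ (w'⁻¹ x))) = compLabel ν x
  rw [hτ1]
  simp

theorem tb_row (α β : Fin n → ℕ) (hα : ∑ i, α i = n) (hβ : ∑ i, β i = n) (w : Equiv.Perm (Fin n))
    (a : Fin n) : ∑ b : Fin n, tb α β w a b = α a := by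
  classical
  have h1 := Finset.card_eq_sum_card_fiberwise
    (f := fun j : Fin n => (⟨compLabel β j, (Cfsg.Agent.S2420.label_spec β hβ j).2.2⟩ : Fin n))
    (s := Finset.univ.filter (fun j : Fin n => compLabel α (w j) = a)) (t := Finset.univ)
    (fun j _ => Finset.mem_coe.mpr (Finset.mem_univ _))
  have h2 : ∀ b : Fin n, ((Finset.univ.filter (fun j : Fin n => compLabel α (w j) = a)).filter
      (fun j => (⟨compLabel β j, (Cfsg.Agent.S2420.label_spec β hβ j).2.2⟩ : Fin n) = b)).card =
      tb α β w a b := by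
    intro b
    unfold tb
    rw [Finset.filter_filter]
    congr 1
    apply Finset.filter_congr
    intro j _
    rw [Fin.ext_iff]
  rw [Finset.sum_congr rfl (fun b _ => h2 b)] at h1
  rw [← h1, ← Cfsg.Agent.S2420.card_blk α hα a]
  apply Finset.card_nbij' (fun j => w j) (fun i => w.symm i)
  · intro j hj
    simp only [Finset.coe_filter, Finset.mem_univ, true_and, Set.mem_setOf_eq] at hj ⊢
    exact hj
  · intro i hi
    simp only [Finset.coe_filter, Finset.mem_univ, true_and, Set.mem_setOf_eq] at hi ⊢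
    simpa using hi
  · intro j _
    simp
  · intro i _
    simp

theorem tb_col (α β : Fin n → ℕ) (hα : ∑ i, α i = n) (hβ : ∑ i, β i = n) (w : Equiv.Perm (Fin n))
    (b : Fin n) : ∑ a : Fin n, tb α β w a b = β b := by
  classical
  have h1 := Finset.card_eq_sum_card_fiberwise
    (f := fun j : Fin n => (⟨compLabel α (w j), (Cfsg.Agent.S2420.label_spec α hα (w j)).2.2⟩ : Fin n))
    (s := Finset.univ.filter (fun j : Fin n => compLabel β j = b)) (t := Finset.univ)
    (fun j _ => Finset.mem_coe.mpr (Finset.mem_univ _))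
  have h2 : ∀ a : Fin n, ((Finset.univ.filter (fun j : Fin n => compLabel β j = b)).filter
      (fun j => (⟨compLabel α (w j), (Cfsg.Agent.S2420.label_spec α hα (w j)).2.2⟩ : Fin n) = a)).card =
      tb α β w a b := by
    intro a
    unfold tb
    rw [Finset.filter_filter]
    congr 1
    apply Finset.filter_congr
    intro j _
    rw [Fin.ext_iff]
    exact and_comm
  rw [Finset.sum_congr rfl (fun a _ => h2 a)] at h1
  rw [← h1, ← Cfsg.Agent.S2420.card_blk β hβ b]

theorem tb_dc (α β : Fin n → ℕ) (w w' : Equiv.Perm (Fin n))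
    (h : (dcRel (youngSubgroup α) (youngSubgroup β)).r w w') : tb α β w' = tb α β w := by
  obtain ⟨ρ, hρ, τ, hτ, rfl⟩ := h
  funext a b
  unfold tb
  have hρ' : ∀ x, compLabel α (ρ x) = compLabel α x := hρ
  have hτ' : ∀ x, compLabel β (τ x) = compLabel β x := hτ
  apply Finset.card_nbij' (fun j => τ j) (fun j => τ.symm j)
  · intro j hj
    simp only [Finset.coe_filter, Finset.mem_univ, true_and, Set.mem_setOf_eq] at hj ⊢
    refine ⟨?_, by rw [hτ']; exact hj.2⟩
    have := hj.1
    rw [Equiv.Perm.mul_apply, Equiv.Perm.mul_apply, hρ'] at this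
    exact this
  · intro j hj
    simp only [Finset.coe_filter, Finset.mem_univ, true_and, Set.mem_setOf_eq] at hj ⊢
    refine ⟨?_, ?_⟩
    · rw [Equiv.Perm.mul_apply, Equiv.Perm.mul_apply, hρ', Equiv.apply_symm_apply]
      exact hj.1
    · have := hτ' (τ.symm j)
      rw [Equiv.apply_symm_apply] at this
      rw [← this]
      exact hj.2
  · intro j _
    simp
  · intro j _
    simp

theorem tb_inj (α β : Fin n → ℕ) (hα : ∑ i, α i = n) (hβ : ∑ i, β i = n) (w w' : Equiv.Perm (Fin n))
    (h : tb α β w = tb α β w') : (dcRel (youngSubgroup α) (youngSubgroup β)).r w w' := by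
  apply dc_of_fib
  intro a b
  by_cases ha : a < n
  · by_cases hb : b < n
    · exact congrFun (congrFun h ⟨a, ha⟩) ⟨b, hb⟩
    · rw [Finset.card_eq_zero.mpr, Finset.card_eq_zero.mpr]
      · rw [Finset.filter_eq_empty_iff]
        intro j _ hj
        have := (Cfsg.Agent.S2420.label_spec β hβ j).2.2
        omega
      · rw [Finset.filter_eq_empty_iff]
        intro j _ hj
        have := (Cfsg.Agent.S2420.label_spec β hβ j).2.2
        omega
  · rw [Finset.card_eq_zero.mpr, Finset.card_eq_zero.mpr]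
    · rw [Finset.filter_eq_empty_iff]
      intro j _ hj
      have := (Cfsg.Agent.S2420.label_spec α hα (w' j)).2.2
      omega
    · rw [Finset.filter_eq_empty_iff]
      intro j _ hj
      have := (Cfsg.Agent.S2420.label_spec α hα (w j)).2.2
      omega

theorem exists_equiv_of_fib {J S K : Type*} [Fintype J] [Fintype S] [DecidableEq J] [DecidableEq S]
    [DecidableEq K] (f : J → K) (g : S → K)
    (h : ∀ k, (Finset.univ.filter (fun j => f j = k)).card =
      (Finset.univ.filter (fun s => g s = k)).card) :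
    ∃ e : J ≃ S, ∀ j, g (e j) = f j := by
  have he : ∀ k, Nonempty ({j // f j = k} ≃ {s // g s = k}) := by
    intro k
    apply Fintype.card_eq.mp
    rw [Fintype.card_subtype, Fintype.card_subtype, h k]
  have e : ∀ k, {j // f j = k} ≃ {s // g s = k} := fun k => (he k).some
  refine ⟨(Equiv.sigmaFiberEquiv f).symm.trans ((Equiv.sigmaCongrRight e).trans
    (Equiv.sigmaFiberEquiv g)), ?_⟩
  intro j
  exact (e (f j) ⟨j, rfl⟩).2

theorem card_sigma_filter {P : Type*} [Fintype P] [DecidableEq P] (A : P → ℕ) (Q : P → Prop)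
    [DecidablePred Q] :
    (Finset.univ.filter (fun s : (Σ p : P, Fin (A p)) => Q s.1)).card =
      ∑ p ∈ Finset.univ.filter Q, A p := by
  have h1 : Finset.univ.filter (fun s : (Σ p : P, Fin (A p)) => Q s.1) =
      (Finset.univ.filter Q).sigma (fun p => (Finset.univ : Finset (Fin (A p)))) := by
    ext ⟨p, x⟩
    simp
  rw [h1, Finset.card_sigma]
  simp

theorem tb_surj (α β : Fin n → ℕ) (hα : ∑ i, α i = n) (hβ : ∑ i, β i = n) (A : Fin n → Fin n → ℕ)
    (hr : ∀ a, ∑ b, A a b = α a) (hc : ∀ b, ∑ a, A a b = β b) :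
    ∃ w : Equiv.Perm (Fin n), ∀ a b, tb α β w a b = A a b := by
  classical
  have hα1 : ∀ a : Fin n, (Finset.univ.filter (fun i : Fin n =>
      (⟨compLabel α i, (Cfsg.Agent.S2420.label_spec α hα i).2.2⟩ : Fin n) = a)).card =
      (Finset.univ.filter (fun s : (Σ p : Fin n × Fin n, Fin (A p.1 p.2)) => s.1.1 = a)).card := by
    intro a
    rw [card_sigma_filter (fun p : Fin n × Fin n => A p.1 p.2) (fun p => p.1 = a)]
    have e1 : ∑ p ∈ Finset.univ.filter (fun p : Fin n × Fin n => p.1 = a), A p.1 p.2 = ∑ b, A a b := by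
      apply Finset.sum_nbij' (fun p => p.2) (fun b => (a, b))
      · intro p _; exact Finset.mem_univ _
      · intro b _; simp
      · intro p hp
        rw [Finset.mem_filter] at hp
        exact Prod.ext hp.2.symm rfl
      · intro b _; rfl
      · intro p hp
        rw [Finset.mem_filter] at hp
        rw [hp.2]
    rw [e1, hr a, ← Cfsg.Agent.S2420.card_blk α hα a]
    congr 1
    apply Finset.filter_congr
    intro j _
    rw [Fin.ext_iff]
  have hβ1 : ∀ b : Fin n, (Finset.univ.filter (fun i : Fin n =>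
      (⟨compLabel β i, (Cfsg.Agent.S2420.label_spec β hβ i).2.2⟩ : Fin n) = b)).card =
      (Finset.univ.filter (fun s : (Σ p : Fin n × Fin n, Fin (A p.1 p.2)) => s.1.2 = b)).card := by
    intro b
    rw [card_sigma_filter (fun p : Fin n × Fin n => A p.1 p.2) (fun p => p.2 = b)]
    have e1 : ∑ p ∈ Finset.univ.filter (fun p : Fin n × Fin n => p.2 = b), A p.1 p.2 = ∑ a, A a b := by
      apply Finset.sum_nbij' (fun p => p.1) (fun a => (a, b))
      · intro p _; exact Finset.mem_univ _
      · intro a _; simp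
      · intro p hp
        rw [Finset.mem_filter] at hp
        exact Prod.ext rfl hp.2.symm
      · intro a _; rfl
      · intro p hp
        rw [Finset.mem_filter] at hp
        rw [hp.2]
    rw [e1, hc b, ← Cfsg.Agent.S2420.card_blk β hβ b]
    congr 1
    apply Finset.filter_congr
    intro j _
    rw [Fin.ext_iff]
  obtain ⟨eα, heα⟩ := exists_equiv_of_fib _ _ hα1
  obtain ⟨eβ, heβ⟩ := exists_equiv_of_fib _ _ hβ1
  refine ⟨eβ.trans eα.symm, ?_⟩
  intro a b
  unfold tb
  have h3 : (Finset.univ.filter (fun j : Fin n => compLabel α ((eβ.trans eα.symm) j) = a ∧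
      compLabel β j = b)).card =
      (Finset.univ.filter (fun s : (Σ p : Fin n × Fin n, Fin (A p.1 p.2)) => s.1 = (a, b))).card := by
    apply Finset.card_nbij' (fun j => eβ j) (fun s => eβ.symm s)
    · intro j hj
      simp only [Finset.coe_filter, Finset.mem_univ, true_and, Set.mem_setOf_eq] at hj ⊢
      have h4 := heα ((eβ.trans eα.symm) j)
      simp only [Equiv.trans_apply, Equiv.apply_symm_apply] at h4
      have h5 := heβ j
      refine Prod.ext ?_ ?_
      · rw [h4]
        exact Fin.ext hj.1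
      · rw [h5]
        exact Fin.ext hj.2
    · intro s hs
      simp only [Finset.coe_filter, Finset.mem_univ, true_and, Set.mem_setOf_eq] at hs ⊢
      have h4 := heα ((eβ.trans eα.symm) (eβ.symm s))
      simp only [Equiv.trans_apply, Equiv.apply_symm_apply] at h4
      have h5 := heβ (eβ.symm s)
      simp only [Equiv.apply_symm_apply] at h5
      refine ⟨?_, ?_⟩
      · have := congrArg Fin.val h4
        have h6 : ((s.fst.1 : Fin n) : ℕ) = a := by rw [hs]
        simp only [Equiv.trans_apply, Equiv.apply_symm_apply]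
        exact this.symm.trans h6
      · have := congrArg Fin.val h5
        have h6 : ((s.fst.2 : Fin n) : ℕ) = b := by rw [hs]
        exact this.symm.trans h6
    · intro j _
      simp
    · intro s _
      simp
  rw [h3, card_sigma_filter (fun p : Fin n × Fin n => A p.1 p.2) (fun p => p = (a, b)),
    Finset.filter_eq', if_pos (Finset.mem_univ _), Finset.sum_singleton]

theorem card_dc_young (α β : Fin n → ℕ) (hα : ∑ i, α i = n) (hβ : ∑ i, β i = n) :
    Nat.card (Quotient (dcRel (youngSubgroup α) (youngSubgroup β))) = MM α β := by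
  classical
  have hmem : ∀ w : Equiv.Perm (Fin n),
      (fun a : Fin n => (Finsupp.equivFunOnFinite.symm (tb α β w a) : Fin n →₀ ℕ)) ∈
      (Fintype.piFinset (fun a : Fin n => (Finset.univ : Finset (Fin n)).finsuppAntidiag (α a))).filter
        (fun C => ∑ a, C a = Finsupp.equivFunOnFinite.symm β) := by
    intro w
    rw [Finset.mem_filter, Fintype.mem_piFinset]
    refine ⟨fun a => ?_, ?_⟩
    · rw [Finset.mem_finsuppAntidiag]
      exact ⟨tb_row α β hα hβ w a, Finset.subset_univ _⟩
    · ext b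
      rw [Finsupp.finsetSum_apply]
      exact tb_col α β hα hβ w b
  have hcard : Nat.card {C // C ∈ (Fintype.piFinset (fun a : Fin n =>
      (Finset.univ : Finset (Fin n)).finsuppAntidiag (α a))).filter
        (fun C => ∑ a, C a = Finsupp.equivFunOnFinite.symm β)} = MM α β := by
    rw [Nat.card_eq_fintype_card, Fintype.card_coe]
    rfl
  rw [← hcard]
  refine Nat.card_congr (Equiv.ofBijective
    (Quotient.lift (fun w => (⟨_, hmem w⟩ : {C // C ∈ (Fintype.piFinset (fun a : Fin n =>
      (Finset.univ : Finset (Fin n)).finsuppAntidiag (α a))).filter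
        (fun C => ∑ a, C a = Finsupp.equivFunOnFinite.symm β)})) ?_) ⟨?_, ?_⟩)
  · intro w w' h
    apply Subtype.ext
    funext a
    show Finsupp.equivFunOnFinite.symm (tb α β w a) = Finsupp.equivFunOnFinite.symm (tb α β w' a)
    rw [tb_dc α β w w' h]
  · intro x y
    refine Quotient.inductionOn₂ x y (fun w w' h => ?_)
    apply Quotient.sound
    apply tb_inj α β hα hβ
    have h1 := congrArg Subtype.val h
    funext a
    have h2 : (Finsupp.equivFunOnFinite.symm (tb α β w a) : Fin n →₀ ℕ) =
        Finsupp.equivFunOnFinite.symm (tb α β w' a) := congrFun h1 a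
    exact Finsupp.equivFunOnFinite.symm.injective h2
  · rintro ⟨C, hC⟩
    rw [Finset.mem_filter, Fintype.mem_piFinset] at hC
    obtain ⟨w, hw⟩ := tb_surj α β hα hβ (fun a b => C a b)
      (fun a => ((Finset.mem_finsuppAntidiag.mp (hC.1 a)).1))
      (fun b => by
        have := congrArg (fun f : Fin n →₀ ℕ => f b) hC.2
        simp only [Finsupp.finsetSum_apply] at this
        exact this)
    refine ⟨Quotient.mk _ w, ?_⟩
    apply Subtype.ext
    funext a
    ext b
    exact hw a b


section Orth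
variable {F : Type*} [Field F] [Fintype F] [DecidableEq F]

theorem dcG_eq_dcW (α β : Fin n → ℕ) :
    Nat.card (Quotient (dcRel (parabolicGL n F α) (parabolicGL n F β))) =
      Nat.card (Quotient (dcRel (youngSubgroup α) (youngSubgroup β))) := by
  have h := flag_inner (F := F) α β
  rw [burnside_dc, burnside_dc] at h
  exact_mod_cast h

theorem comp_sum (ν : Fin n → ℕ) (hs : ∑ i, ν i = n) (κ : Equiv.Perm (Fin n))
    (hv : ∀ i : Fin n, (κ i).val ≤ ν i + i.val) :
    ∑ i : Fin n, (ν i + i.val - (κ i).val) = n := by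
  have h1 : ∑ i : Fin n, (ν i + i.val - (κ i).val) + ∑ i : Fin n, (κ i).val =
      ∑ i : Fin n, ν i + ∑ i : Fin n, i.val := by
    rw [← Finset.sum_add_distrib, ← Finset.sum_add_distrib]
    apply Finset.sum_congr rfl
    intro i _
    exact Nat.sub_add_cancel (hv i)
  have h2 : ∑ i : Fin n, (κ i).val = ∑ i : Fin n, i.val :=
    Equiv.sum_comp κ (fun i : Fin n => i.val)
  omega

theorem unip_inner (ν ν' : Fin n → ℕ) (hs : ∑ i, ν i = n) (hs' : ∑ i, ν' i = n) :
    (Nat.card (GL (Fin n) F) : ℂ)⁻¹ * ∑ g : GL (Fin n) F,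
        unipotentCharacterGL n F ν g * unipotentCharacterGL n F ν' g =
      ((∑ κ' : Equiv.Perm (Fin n), ∑ κ : Equiv.Perm (Fin n),
      (if (∀ i, ((κ' i : Fin n) : ℕ) ≤ ν' i + (i : ℕ)) then
        (if (∀ i, ((κ i : Fin n) : ℕ) ≤ ν i + (i : ℕ)) then
        ((Equiv.Perm.sign κ' : ℤ) * (Equiv.Perm.sign κ : ℤ)) *
          (MM (fun i => ν i + (i : ℕ) - (κ i : ℕ)) (fun i => ν' i + (i : ℕ) - (κ' i : ℕ)) : ℤ)
        else 0) else 0) : ℤ) : ℂ) := by
  unfold unipotentCharacterGL
  have h1 : ∀ g : GL (Fin n) F,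
      (∑ κ : Equiv.Perm (Fin n), if ∀ i : Fin n, (κ i).val ≤ ν i + i.val then
        ((Equiv.Perm.sign κ : ℤ) : ℂ) *
          fixedPointCharacter (parabolicGL n F fun i => ν i + i.val - (κ i).val) g else 0) *
      (∑ κ' : Equiv.Perm (Fin n), if ∀ i : Fin n, (κ' i).val ≤ ν' i + i.val then
        ((Equiv.Perm.sign κ' : ℤ) : ℂ) *
          fixedPointCharacter (parabolicGL n F fun i => ν' i + i.val - (κ' i).val) g else 0) =
      ∑ κ' : Equiv.Perm (Fin n), ∑ κ : Equiv.Perm (Fin n),
        (if ∀ i : Fin n, (κ i).val ≤ ν i + i.val then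
        ((Equiv.Perm.sign κ : ℤ) : ℂ) *
          fixedPointCharacter (parabolicGL n F fun i => ν i + i.val - (κ i).val) g else 0) *
        (if ∀ i : Fin n, (κ' i).val ≤ ν' i + i.val then
        ((Equiv.Perm.sign κ' : ℤ) : ℂ) *
          fixedPointCharacter (parabolicGL n F fun i => ν' i + i.val - (κ' i).val) g else 0) := by
    intro g
    rw [Finset.sum_mul_sum, Finset.sum_comm]
  rw [Finset.sum_congr rfl (fun g _ => h1 g), Finset.sum_comm, Finset.mul_sum]
  push_cast
  apply Finset.sum_congr rfl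
  intro κ' _
  rw [Finset.sum_comm, Finset.mul_sum]
  apply Finset.sum_congr rfl
  intro κ _
  by_cases hv' : ∀ i : Fin n, (κ' i).val ≤ ν' i + i.val
  · by_cases hv : ∀ i : Fin n, (κ i).val ≤ ν i + i.val
    · simp only [if_pos hv, if_pos hv']
      have h2 := burnside_dc (parabolicGL n F fun i => ν i + i.val - (κ i).val)
        (parabolicGL n F fun i => ν' i + i.val - (κ' i).val)
      rw [dcG_eq_dcW, card_dc_young _ _ (comp_sum ν hs κ hv) (comp_sum ν' hs' κ' hv')] at h2
      rw [← h2, Finset.mul_sum, Finset.mul_sum, Finset.mul_sum]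
      apply Finset.sum_congr rfl
      intro g _
      ring
    · simp only [if_neg hv, if_pos hv']
      simp
  · simp only [if_neg hv']
    simp

theorem unip_orth (ν ν' : Fin n → ℕ) (hm : Monotone ν) (hm' : Monotone ν') (hs : ∑ i, ν i = n)
    (hs' : ∑ i, ν' i = n) :
    (Nat.card (GL (Fin n) F) : ℂ)⁻¹ * ∑ g : GL (Fin n) F,
        unipotentCharacterGL n F ν g * unipotentCharacterGL n F ν' g = if ν = ν' then 1 else 0 := by
  rw [unip_inner ν ν' hs hs']
  have hsm : ∀ (μ : Fin n → ℕ), Monotone μ → StrictMono (fun i : Fin n => μ i + (i : ℕ)) := by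
    intro μ hμ i j hij
    have h1 := hμ hij.le
    have h2 : (i : ℕ) < (j : ℕ) := hij
    show μ i + (i : ℕ) < μ j + (j : ℕ)
    omega
  rw [CI_strict (fun i : Fin n => ν i + (i : ℕ)) (fun i : Fin n => ν' i + (i : ℕ)) (hsm ν hm) (hsm ν' hm')]
  by_cases h : ν = ν'
  · subst h
    simp
  · rw [if_neg h, if_neg]
    · simp
    · intro h'
      apply h
      funext i
      have := congrFun h' i
      simpa using this

end Orth

end Cfsg.Agent.Lib.helper18.GLFlag
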