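import Mathlib
import Cfsg.Agent.S2590

set_option autoImplicit false
open Cfsg

namespace Cfsg.Agent.Lib.helper18.OrthConj



open Matrix


open Cfsg.Agent.Lib.helper18.SemiConj Cfsg.Agent.S2589

universe u
variable {F : Type u} [Field F]

theorem odd_fix {M : Type*} [Monoid M] (a e : M) (he : e * e = e) (hae : a * e = e * a)
    (hg : a * a * e = e) (k : ℕ) (hk : Odd k) (hak : a ^ k = 1) : a * e = e := by
  obtain ⟨j, rfl⟩ := hk
  have ht : (a * e) * (a * e) = e := by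
    calc (a * e) * (a * e) = a * (e * a) * e := by simp only [mul_assoc]
      _ = a * (a * e) * e := by rw [hae]
      _ = (a * a * e) * e := by simp only [mul_assoc]
      _ = e := by rw [hg, he]
  have hte : (a * e) * e = a * e := by rw [mul_assoc, he]
  obtain ⟨t, ht_def⟩ : ∃ t, t = a * e := ⟨_, rfl⟩
  rw [← ht_def] at ht hte ⊢
  have h1 : ∀ i : ℕ, t ^ (2 * i + 1) = t := by
    intro i
    induction i with
    | zero => simp
    | succ i ih =>
      rw [show 2 * (i + 1) + 1 = (2 * i + 1) + 2 by ring, pow_add, ih, pow_two, ht, hte]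
  have h3 : ∀ i : ℕ, e ^ (i + 1) = e := by
    intro i
    induction i with
    | zero => simp
    | succ i ih => rw [pow_succ, ih, he]
  have h2 : t ^ (2 * j + 1) = e := by
    rw [ht_def, (show Commute a e from hae).mul_pow, hak, one_mul, h3]
  rw [← h1 j, h2]

set_option maxHeartbeats 1600000 in
theorem core_gen [Finite F] {ι : Type} [Fintype ι] [DecidableEq ι] (Q : QuadraticForm F (ι → F))
    (hQ : (QuadraticMap.polarBilin Q).Nondegenerate)
    (G Gi : Matrix ι ι F) (hG : G * Gi = 1) (hGsym : Gᵀ = G)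
    (hβ : ∀ u v : ι → F, QuadraticMap.polar (⇑Q) u v = u ⬝ᵥ G *ᵥ v)
    (Am Ai Bm Bi x xi : Matrix ι ι F)
    (hAAi : Am * Ai = 1) (hBBi : Bm * Bi = 1) (hxxi : x * xi = 1)
    (hQA : ∀ v, Q (Am *ᵥ v) = Q v) (hQB : ∀ v, Q (Bm *ᵥ v) = Q v)
    (hxA : x * Am = Bm * x) (k : ℕ) (hodd : Odd k) (hkF : (k : F) ≠ 0) (hAk : Am ^ k = 1) :
    ∃ s si : Matrix ι ι F, s * si = 1 ∧ s * Am = Bm * s ∧ ∀ v, Q (s *ᵥ v) = Q v := by
  classical
  have hG' : Gi * G = 1 := mul_eq_one_comm.mp hG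
  have hAiA : Ai * Am = 1 := mul_eq_one_comm.mp hAAi
  have hBiB : Bi * Bm = 1 := mul_eq_one_comm.mp hBBi
  have hxix : xi * x = 1 := mul_eq_one_comm.mp hxxi
  have hε : (1 : F) * 1 = 1 := one_mul 1
  have hsym : Gᵀ = (1 : F) • G := by rw [one_smul, hGsym]
  have ddg : ∀ M, dg G Gi (dg G Gi M) = M := dg_dg G Gi hG 1 hε hsym
  have dmul : ∀ M N, dg G Gi (M * N) = dg G Gi N * dg G Gi M := dg_mul G Gi hG
  -- polar of images
  have hpol : ∀ (M : Matrix ι ι F) (a b : ι → F),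
      QuadraticMap.polar (⇑Q) (M *ᵥ a) (M *ᵥ b) = a ⬝ᵥ (G * (dg G Gi M * M)) *ᵥ b := by
    intro M a b
    have e1 : G * (dg G Gi M * M) = Mᵀ * G * M := by
      unfold dg
      calc G * (Gi * Mᵀ * G * M) = (G * Gi) * Mᵀ * G * M := by simp only [mul_assoc]
        _ = Mᵀ * G * M := by rw [hG, one_mul]
    rw [hβ, e1, dot_tr, Matrix.mulVec_mulVec, Matrix.mulVec_mulVec, mul_assoc]
  have hdiso : ∀ M : Matrix ι ι F, (∀ v, Q (M *ᵥ v) = Q v) → dg G Gi M * M = 1 := by
    intro M hM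
    have e1 : G * (dg G Gi M * M) = G := by
      apply mat_ext_bil
      intro a b
      rw [← hpol, ← hβ]
      unfold QuadraticMap.polar
      rw [← Matrix.mulVec_add, hM, hM, hM]
    calc dg G Gi M * M = (Gi * G) * (dg G Gi M * M) := by rw [hG', one_mul]
      _ = Gi * (G * (dg G Gi M * M)) := by rw [mul_assoc]
      _ = 1 := by rw [e1, hG']
  have hdA : dg G Gi Am = Ai := by
    calc dg G Gi Am = dg G Gi Am * (Am * Ai) := by rw [hAAi, mul_one]
      _ = Ai := by rw [← mul_assoc, hdiso Am hQA, one_mul]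
  have hdB : dg G Gi Bm = Bi := by
    calc dg G Gi Bm = dg G Gi Bm * (Bm * Bi) := by rw [hBBi, mul_one]
      _ = Bi := by rw [← mul_assoc, hdiso Bm hQB, one_mul]
  set h := dg G Gi x * x with hh
  set hi := xi * dg G Gi xi with hhi
  have hhhi : h * hi = 1 := by
    calc h * hi = dg G Gi x * (x * xi) * dg G Gi xi := by
          rw [hh, hhi]; simp only [mul_assoc]
      _ = 1 := by rw [hxxi, mul_one, ← dmul, hxix, dg_one G Gi hG]
  have hhih : hi * h = 1 := mul_eq_one_comm.mp hhhi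
  have hdh : dg G Gi h = h := by rw [hh, dmul, ddg]
  have hAh : Am * h = h * Am := by
    have h1 : x * Ai = Bi * x := by
      calc x * Ai = (Bi * Bm) * x * Ai := by rw [hBiB, one_mul]
        _ = Bi * (Bm * x) * Ai := by simp only [mul_assoc]
        _ = Bi * (x * Am) * Ai := by rw [hxA]
        _ = Bi * x * (Am * Ai) := by simp only [mul_assoc]
        _ = Bi * x := by rw [hAAi, mul_one]
    have h2 : Am * dg G Gi x = dg G Gi x * Bm := by
      have := congrArg (dg G Gi) h1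
      rw [dmul, dmul, ← hdA, ← hdB, ddg, ddg] at this
      exact this
    calc Am * h = (Am * dg G Gi x) * x := by rw [hh, mul_assoc]
      _ = dg G Gi x * (Bm * x) := by rw [h2, mul_assoc]
      _ = h * Am := by rw [← hxA, hh, mul_assoc]
  set g := Am * Am with hg
  have hgk : g ^ k = 1 := by
    rw [hg, (Commute.refl Am).mul_pow, hAk, one_mul]
  have hggi : g * (Ai * Ai) = 1 := by
    calc g * (Ai * Ai) = Am * (Am * Ai) * Ai := by rw [hg]; simp only [mul_assoc]
      _ = 1 := by rw [hAAi, mul_one, hAAi]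
  have hdg : dg G Gi g = Ai * Ai := by rw [hg, dmul, hdA]
  set e := avg g k with he_def
  set r := avgR g k with hr_def
  have he : e * e = e := avg_idem g k hgk hkF
  have hde : dg G Gi e = e := avg_dg G Gi hG 1 hε hsym g (Ai * Ai) hggi hdg k hgk hkF
  have hzg : ∀ z : Matrix ι ι F, z * Am = Am * z → z * g = g * z := by
    intro z hz
    rw [hg, ← mul_assoc, hz, mul_assoc, hz, mul_assoc]
  have hec : ∀ z : Matrix ι ι F, z * Am = Am * z → z * e = e * z :=
    fun z hz => avg_comm g k z (hzg z hz)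
  have hrc : ∀ z : Matrix ι ι F, z * Am = Am * z → z * r = r * z :=
    fun z hz => avgR_comm g k z (hzg z hz)
  have hρc : ∀ z : Matrix ι ι F, z * Am = Am * z →
      z * (Am * r) = (Am * r) * z := by
    intro z hz
    rw [← mul_assoc, hz, mul_assoc, hrc z hz, mul_assoc]
  have hgr : (g - 1) * r = 1 - e := sub_one_mul_avgR g k hgk hkF
  have hρ : (Am - Ai) * (Am * r) = 1 - e := by
    rw [← mul_assoc, sub_mul, hAiA]
    exact hgr
  obtain ⟨u, huA, hue, hun⟩ := norm_trick G Gi hG 1 hε hsym Am Ai h hi e (Am * r) hAAi hdA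
    hhhi hdh hAh he hde hec hρc hρ
  have hhe : h * e = e * h := hec h hAh.symm
  have hge : g * e = e := mul_avg g k hgk
  have hAe' : Am * e = e * Am := (hec Am rfl)
  have hAe : Am * e = e := odd_fix Am e he hAe' hge k hodd hAk
  have heA : e * Am = e := by rw [← hAe']; exact hAe
  have h1e : (1 - e) * (1 - e) = 1 - e := by
    rw [mul_sub, sub_mul, sub_mul, he]; simp
  have q1 : (1 - e) * e = 0 := by rw [sub_mul, one_mul, he, sub_self]
  have q2 : e * (1 - e) = 0 := by rw [mul_sub, mul_one, he, sub_self]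
  have hdue : dg G Gi u * e = e * dg G Gi u := by
    have := congrArg (dg G Gi) hue
    rw [dmul, dmul, hde] at this
    exact this.symm
  have hd1e : dg G Gi (1 - e) = 1 - e := by rw [dg_sub, dg_one G Gi hG, hde]
  -- z₀
  set z₀ := (1 - e) * u + e with hz₀
  have hdz₀ : dg G Gi z₀ = dg G Gi u * (1 - e) + e := by
    rw [hz₀, dg_add, dmul, hd1e, hde]
  have hu1e : u * (1 - e) = (1 - e) * u := by rw [mul_sub, sub_mul, hue, mul_one, one_mul]
  have hdu1e : dg G Gi u * (1 - e) = (1 - e) * dg G Gi u := by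
    rw [mul_sub, sub_mul, hdue, mul_one, one_mul]
  have hh1e : h * (1 - e) = (1 - e) * h := by rw [mul_sub, sub_mul, hhe, mul_one, one_mul]
  have hz₀z₀ : dg G Gi z₀ * z₀ = (1 - e) * h + e := by
    rw [hdz₀, hz₀, add_mul, mul_add, mul_add]
    have a1 : dg G Gi u * (1 - e) * ((1 - e) * u) = (1 - e) * h := by
      calc dg G Gi u * (1 - e) * ((1 - e) * u) = dg G Gi u * ((1 - e) * (1 - e)) * u := by
            simp only [mul_assoc]
        _ = (1 - e) * (dg G Gi u * u) := by rw [h1e, hdu1e, mul_assoc]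
        _ = (1 - e) * h := hun
    have a2 : dg G Gi u * (1 - e) * e = 0 := by rw [mul_assoc, q1, mul_zero]
    have a3 : e * ((1 - e) * u) = 0 := by rw [← mul_assoc, q2, zero_mul]
    rw [a1, a2, a3, he, add_zero, zero_add]
  set h₀i := (1 - e) * hi + e with hh₀i
  have hhie : hi * e = e * hi := by
    calc hi * e = hi * e * (h * hi) := by rw [hhhi, mul_one]
      _ = hi * (e * h) * hi := by simp only [mul_assoc]
      _ = hi * (h * e) * hi := by rw [hhe]
      _ = (hi * h) * e * hi := by simp only [mul_assoc]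
      _ = e * hi := by rw [hhih, one_mul]
  have hh₀ : h₀i * ((1 - e) * h + e) = 1 := by
    rw [hh₀i, add_mul, mul_add, mul_add]
    have a1 : (1 - e) * hi * ((1 - e) * h) = 1 - e := by
      have : hi * (1 - e) = (1 - e) * hi := by rw [mul_sub, sub_mul, hhie, mul_one, one_mul]
      calc (1 - e) * hi * ((1 - e) * h) = (1 - e) * (hi * (1 - e)) * h := by
            simp only [mul_assoc]
        _ = (1 - e) * (1 - e) * (hi * h) := by rw [this]; simp only [mul_assoc]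
        _ = 1 - e := by rw [h1e, hhih, mul_one]
    have a2 : (1 - e) * hi * e = 0 := by rw [mul_assoc, hhie, ← mul_assoc, q1, zero_mul]
    have a3 : e * ((1 - e) * h) = 0 := by rw [← mul_assoc, q2, zero_mul]
    rw [a1, a2, a3, he, add_zero, zero_add, sub_add_cancel]
  set z₀i := h₀i * dg G Gi z₀ with hz₀i
  have hz₀iz₀ : z₀i * z₀ = 1 := by rw [hz₀i, mul_assoc, hz₀z₀, hh₀]
  have hz₀z₀i : z₀ * z₀i = 1 := mul_eq_one_comm.mp hz₀iz₀
  have hz₀e : z₀ * e = e * z₀ := by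
    rw [hz₀, add_mul, mul_add, mul_assoc, hue, ← mul_assoc, ← mul_assoc, q2, q1]
  have hz₀A : z₀ * Am = Am * z₀ := by
    rw [hz₀, add_mul, mul_add, mul_assoc, huA, ← mul_assoc, ← mul_assoc, heA, hAe]
    congr 1
    rw [sub_mul, mul_sub, one_mul, mul_one, hAe, heA]
  have hz₀ie : z₀i * e = e * z₀i := by
    calc z₀i * e = z₀i * e * (z₀ * z₀i) := by rw [hz₀z₀i, mul_one]
      _ = z₀i * (e * z₀) * z₀i := by simp only [mul_assoc]
      _ = z₀i * (z₀ * e) * z₀i := by rw [hz₀e]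
      _ = (z₀i * z₀) * e * z₀i := by simp only [mul_assoc]
      _ = e * z₀i := by rw [hz₀iz₀, one_mul]
  have hz₀1e : z₀ * (1 - e) = u * (1 - e) := by
    rw [hz₀, add_mul, q2, add_zero, ← hu1e, mul_assoc, h1e]
  -- Q (x w) = Q (u w) on V'
  have hGe : (1 - e)ᵀ * G = G * (1 - e) := by
    have h1 : Gi * (1 - e)ᵀ * G = 1 - e := hd1e
    calc (1 - e)ᵀ * G = (G * Gi) * (1 - e)ᵀ * G := by rw [hG, one_mul]
      _ = G * (Gi * (1 - e)ᵀ * G) := by simp only [mul_assoc]
      _ = G * (1 - e) := by rw [h1]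
  have hpolV : ∀ a b : ι → F, (1 - e) *ᵥ a = a →
      QuadraticMap.polar (⇑Q) (u *ᵥ a) (u *ᵥ b) = QuadraticMap.polar (⇑Q) (x *ᵥ a) (x *ᵥ b) := by
    intro a b ha
    rw [hpol, hpol, ← hh]
    have e1 : a ⬝ᵥ (G * (dg G Gi u * u)) *ᵥ b = a ⬝ᵥ (G * ((1 - e) * (dg G Gi u * u))) *ᵥ b := by
      conv_lhs => rw [← ha]
      rw [dot_tr, Matrix.mulVec_mulVec, ← mul_assoc, hGe, mul_assoc]
    have e2 : a ⬝ᵥ (G * h) *ᵥ b = a ⬝ᵥ (G * ((1 - e) * h)) *ᵥ b := by
      conv_lhs => rw [← ha]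
      rw [dot_tr, Matrix.mulVec_mulVec, ← mul_assoc, hGe, mul_assoc]
    rw [e1, e2, hun]
  have hQsub : ∀ a b : ι → F, Q (a - b) = Q a + Q b - QuadraticMap.polar (⇑Q) a b := by
    intro a b
    rw [sub_eq_add_neg, QuadraticMap.map_add (⇑Q) a (-b), QuadraticMap.map_neg,
      QuadraticMap.polar_neg_right]
    ring
  have hQeq : ∀ w : ι → F, (1 - e) *ᵥ w = w → Q (x *ᵥ w) = Q (u *ᵥ w) := by
    intro w hw
    obtain ⟨w₁, hw₁⟩ : ∃ w₁, w₁ = ((Am + 1) * r) *ᵥ w := ⟨_, rfl⟩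
    have hw₁V : (1 - e) *ᵥ w₁ = w₁ := by
      rw [hw₁, Matrix.mulVec_mulVec]
      have c1 : (1 - e) * ((Am + 1) * r) = ((Am + 1) * r) * (1 - e) := by
        have c0 : Commute e Am := hAe'.symm
        have c2 : Commute e ((Am + 1) * r) :=
          (c0.add_right (Commute.one_right e)).mul_right (hrc e hAe'.symm)
        rw [sub_mul, mul_sub, one_mul, mul_one, c2.eq]
      rw [c1, ← Matrix.mulVec_mulVec, hw]
    have hAw₁V : (1 - e) *ᵥ (Am *ᵥ w₁) = Am *ᵥ w₁ := by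
      rw [Matrix.mulVec_mulVec]
      have : (1 - e) * Am = Am * (1 - e) := by rw [sub_mul, mul_sub, one_mul, mul_one, hAe']
      rw [this, ← Matrix.mulVec_mulVec, hw₁V]
    have hw_eq : w = Am *ᵥ w₁ - w₁ := by
      have c3 : (Am - 1) * ((Am + 1) * r) = 1 - e := by
        rw [← mul_assoc]
        have : (Am - 1) * (Am + 1) = g - 1 := by
          rw [hg, sub_mul, mul_add, mul_add, mul_one, one_mul, one_mul]; abel
        rw [this, hgr]
      rw [hw₁, Matrix.mulVec_mulVec, ← Matrix.sub_mulVec]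
      have : Am * ((Am + 1) * r) - (Am + 1) * r = (Am - 1) * ((Am + 1) * r) := by
        rw [sub_mul, one_mul]
      rw [this, c3, hw]
    have ex : Q (x *ᵥ w) = Q (x *ᵥ w₁) + Q (x *ᵥ w₁) -
        QuadraticMap.polar (⇑Q) (x *ᵥ (Am *ᵥ w₁)) (x *ᵥ w₁) := by
      conv_lhs => rw [hw_eq]
      rw [Matrix.mulVec_sub, hQsub]
      congr 2
      rw [Matrix.mulVec_mulVec, hxA, ← Matrix.mulVec_mulVec, hQB]
    have eu : Q (u *ᵥ w) = Q (u *ᵥ w₁) + Q (u *ᵥ w₁) -
        QuadraticMap.polar (⇑Q) (u *ᵥ (Am *ᵥ w₁)) (u *ᵥ w₁) := by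
      conv_lhs => rw [hw_eq]
      rw [Matrix.mulVec_sub, hQsub]
      congr 2
      rw [Matrix.mulVec_mulVec, huA, ← Matrix.mulVec_mulVec, hQA]
    have e2 : Q (x *ᵥ w₁) + Q (x *ᵥ w₁) = Q (u *ᵥ w₁) + Q (u *ᵥ w₁) := by
      have a1 := QuadraticMap.polar_self Q (x *ᵥ w₁)
      have a2 := QuadraticMap.polar_self Q (u *ᵥ w₁)
      rw [two_smul] at a1 a2
      rw [← a1, ← a2, hpolV w₁ w₁ hw₁V]
    rw [ex, eu, e2, hpolV (Am *ᵥ w₁) w₁ hAw₁V]
  -- the linear equivalence ψ = x * z₀i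
  set ψ := x * z₀i with hψ
  set ψi := z₀ * xi with hψi
  have hψψi : ψ * ψi = 1 := by
    calc ψ * ψi = x * (z₀i * z₀) * xi := by rw [hψ, hψi]; simp only [mul_assoc]
      _ = 1 := by rw [hz₀iz₀, mul_one, hxxi]
  have hψiψ : ψi * ψ = 1 := mul_eq_one_comm.mp hψψi
  let ψL : (ι → F) ≃ₗ[F] (ι → F) :=
    LinearEquiv.ofLinear (Matrix.toLin' ψ) (Matrix.toLin' ψi)
      (by rw [← Matrix.toLin'_mul, hψψi, Matrix.toLin'_one])
      (by rw [← Matrix.toLin'_mul, hψiψ, Matrix.toLin'_one])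
  have hψL : ∀ v, ψL v = ψ *ᵥ v := fun v => by
    show Matrix.toLin' ψ v = _
    rw [Matrix.toLin'_apply]
  set X : Submodule F (ι → F) := LinearMap.range (Matrix.toLin' (1 - e)) with hX
  have hXfix : ∀ v : X, (1 - e) *ᵥ (v : ι → F) = v := by
    rintro ⟨v, t, rfl⟩
    show (1 - e) *ᵥ (Matrix.toLin' (1 - e) t) = Matrix.toLin' (1 - e) t
    rw [Matrix.toLin'_apply, Matrix.mulVec_mulVec, h1e]
  have hz₀ie1 : (1 - e) * z₀i = z₀i * (1 - e) := by
    rw [sub_mul, mul_sub, one_mul, mul_one, hz₀ie]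
  have hz₀e1 : (1 - e) * z₀ = z₀ * (1 - e) := by
    rw [sub_mul, mul_sub, one_mul, mul_one, hz₀e]
  have hψQ : ∀ v : X, Q (ψ *ᵥ (v : ι → F)) = Q (v : ι → F) := by
    intro v
    obtain ⟨w, hw⟩ : ∃ w, w = z₀i *ᵥ (v : ι → F) := ⟨_, rfl⟩
    have hwV : (1 - e) *ᵥ w = w := by
      rw [hw, Matrix.mulVec_mulVec, hz₀ie1, ← Matrix.mulVec_mulVec, hXfix]
    have h1 : ψ *ᵥ (v : ι → F) = x *ᵥ w := by rw [hψ, hw, Matrix.mulVec_mulVec]
    have h2 : (v : ι → F) = u *ᵥ w := by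
      have h3 : z₀ *ᵥ w = (v : ι → F) := by
        rw [hw, Matrix.mulVec_mulVec, hz₀z₀i, Matrix.one_mulVec]
      rw [← h3]
      conv_lhs => rw [← hwV]
      rw [Matrix.mulVec_mulVec, hz₀1e, ← Matrix.mulVec_mulVec, hwV]
    rw [h1, hQeq w hwV, ← h2]
  obtain ⟨gL, hgQ, hgX⟩ := Cfsg.Agent.S0750.result Q hQ X _ (ψL.submoduleMap X)
    (fun v => by
      have : ((ψL.submoduleMap X v : X.map (ψL : (ι → F) →ₗ[F] (ι → F))) : ι → F)
          = ψ *ᵥ (v : ι → F) := by rw [← hψL]; rfl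
      rw [this]; exact hψQ v)
  have hgXv : ∀ v : X, gL (v : ι → F) = ψ *ᵥ (v : ι → F) := by
    intro v
    rw [hgX v, ← hψL]; rfl
  obtain ⟨gm, hgm⟩ : ∃ gm, gm = LinearMap.toMatrix' (gL : (ι → F) →ₗ[F] (ι → F)) := ⟨_, rfl⟩
  obtain ⟨gmi, hgmi⟩ : ∃ gmi, gmi = LinearMap.toMatrix' (gL.symm : (ι → F) →ₗ[F] (ι → F)) :=
    ⟨_, rfl⟩
  have hgmv : ∀ v, gm *ᵥ v = gL v := by
    intro v; rw [hgm, ← Matrix.toLin'_apply, Matrix.toLin'_toMatrix']; rfl
  have hgmiv : ∀ v, gmi *ᵥ v = gL.symm v := by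
    intro v; rw [hgmi, ← Matrix.toLin'_apply, Matrix.toLin'_toMatrix']; rfl
  have hgg : gmi * gm = 1 := by
    apply Matrix.toLin'.injective
    apply LinearMap.ext
    intro v
    rw [Matrix.toLin'_apply, ← Matrix.mulVec_mulVec, hgmv, hgmiv, LinearEquiv.symm_apply_apply,
      Matrix.toLin'_one]
    rfl
  have hgg' : gm * gmi = 1 := mul_eq_one_comm.mp hgg
  have hQgmi : ∀ v, Q (gmi *ᵥ v) = Q v := by
    intro v
    rw [hgmiv, ← hgQ (gL.symm v), LinearEquiv.apply_symm_apply]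
  obtain ⟨y, hy⟩ : ∃ y, y = gmi * x := ⟨_, rfl⟩
  obtain ⟨yi, hyi⟩ : ∃ yi, yi = xi * gm := ⟨_, rfl⟩
  have hyyi : y * yi = 1 := by
    calc y * yi = gmi * (x * xi) * gm := by rw [hy, hyi]; simp only [mul_assoc]
      _ = 1 := by rw [hxxi, mul_one, hgg]
  have hyiy : yi * y = 1 := mul_eq_one_comm.mp hyyi
  have hQy : ∀ v, Q (y *ᵥ v) = Q (x *ᵥ v) := by
    intro v; rw [hy, ← Matrix.mulVec_mulVec, hQgmi]
  have hy1e : y * (1 - e) = z₀ * (1 - e) := by
    apply Matrix.toLin'.injective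
    apply LinearMap.ext
    intro v
    rw [Matrix.toLin'_apply, Matrix.toLin'_apply, ← Matrix.mulVec_mulVec, ← Matrix.mulVec_mulVec]
    obtain ⟨w, hw⟩ : ∃ w, w = (1 - e) *ᵥ v := ⟨_, rfl⟩
    rw [← hw]
    have hzw : z₀ *ᵥ w ∈ X := by
      refine ⟨z₀ *ᵥ v, ?_⟩
      rw [Matrix.toLin'_apply, Matrix.mulVec_mulVec, hz₀e1, ← Matrix.mulVec_mulVec, hw]
    have h1 : gL (z₀ *ᵥ w) = x *ᵥ w := by
      have h2 := hgXv ⟨z₀ *ᵥ w, hzw⟩
      rw [h2, hψ]
      show (x * z₀i) *ᵥ (z₀ *ᵥ w) = x *ᵥ w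
      rw [Matrix.mulVec_mulVec, mul_assoc, hz₀iz₀, mul_one]
    rw [hy, ← Matrix.mulVec_mulVec, ← h1, hgmiv, LinearEquiv.symm_apply_apply]
  have hyy : dg G Gi y * y = h := by
    have e1 : G * (dg G Gi y * y) = G * h := by
      apply mat_ext_bil
      intro a b
      rw [← hpol, hh, ← hpol]
      unfold QuadraticMap.polar
      rw [← Matrix.mulVec_add, ← Matrix.mulVec_add, hQy, hQy, hQy]
    calc dg G Gi y * y = (Gi * G) * (dg G Gi y * y) := by rw [hG', one_mul]
      _ = Gi * (G * (dg G Gi y * y)) := by rw [mul_assoc]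
      _ = h := by rw [e1, ← mul_assoc, hG', one_mul]
  have hd : (1 - e) * y * e = 0 := by
    have e1 : dg G Gi (y * (1 - e)) * (y * e) = 0 := by
      rw [dmul, hd1e]
      calc (1 - e) * dg G Gi y * (y * e) = (1 - e) * (dg G Gi y * y) * e := by
            simp only [mul_assoc]
        _ = 0 := by rw [hyy, mul_assoc, hhe, ← mul_assoc, q1, zero_mul]
    rw [hy1e, dmul, hd1e] at e1
    have c1 : (1 - e) * dg G Gi z₀ = dg G Gi z₀ * (1 - e) := by
      have c2 := congrArg (dg G Gi) hz₀e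
      rw [dmul, dmul, hde] at c2
      rw [sub_mul, mul_sub, one_mul, mul_one, c2]
    have e2 : dg G Gi z₀ * ((1 - e) * y * e) = 0 := by
      rw [← e1, c1]; simp only [mul_assoc]
    calc (1 - e) * y * e = (dg G Gi z₀i * dg G Gi z₀) * ((1 - e) * y * e) := by
          rw [← dmul, hz₀z₀i, dg_one G Gi hG, one_mul]
      _ = dg G Gi z₀i * (dg G Gi z₀ * ((1 - e) * y * e)) := by rw [mul_assoc]
      _ = 0 := by rw [e2, mul_zero]
  have hye : y * e = e * y * e := by
    have h1 : y * e = (1 - e) * y * e + e * y * e := by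
      rw [← add_mul, ← add_mul, sub_add_cancel, one_mul]
    rw [hd, zero_add] at h1
    exact h1
  have hyA : y * Am = Am * y := by
    have s1 : y = z₀ * (1 - e) + y * e := by
      rw [← hy1e, ← mul_add, sub_add_cancel, mul_one]
    have a1 : z₀ * (1 - e) * Am = Am * (z₀ * (1 - e)) := by
      have h1 : (1 - e) * Am = Am * (1 - e) := by rw [sub_mul, mul_sub, one_mul, mul_one, hAe']
      rw [mul_assoc, h1, ← mul_assoc, hz₀A, mul_assoc]
    have a2 : y * e * Am = y * e := by rw [mul_assoc, heA]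
    have a3 : Am * (y * e) = y * e := by
      rw [hye, ← mul_assoc, ← mul_assoc, hAe]
    calc y * Am = (z₀ * (1 - e) + y * e) * Am := by rw [← s1]
      _ = Am * (z₀ * (1 - e)) + y * e := by rw [add_mul, a1, a2]
      _ = Am * (z₀ * (1 - e) + y * e) := by rw [mul_add, a3]
      _ = Am * y := by rw [← s1]
  have hyiA : yi * Am = Am * yi := by
    calc yi * Am = yi * Am * (y * yi) := by rw [hyyi, mul_one]
      _ = yi * (Am * y) * yi := by simp only [mul_assoc]
      _ = yi * (y * Am) * yi := by rw [hyA]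
      _ = (yi * y) * Am * yi := by simp only [mul_assoc]
      _ = Am * yi := by rw [hyiy, one_mul]
  refine ⟨x * yi, y * xi, ?_, ?_, ?_⟩
  · calc x * yi * (y * xi) = x * (yi * y) * xi := by simp only [mul_assoc]
      _ = 1 := by rw [hyiy, mul_one, hxxi]
  · rw [mul_assoc, hyiA, ← mul_assoc, hxA, mul_assoc]
  · intro v
    rw [← Matrix.mulVec_mulVec, ← hQy, Matrix.mulVec_mulVec, hyyi, Matrix.one_mulVec]

theorem main_gen {F : Type*} [Field F] [Fintype F] {p : ℕ} [Fact p.Prime] [CharP F p] {ι : Type} [Fintype ι] [DecidableEq ι] (Q : QuadraticForm F (ι → F)) (hQ : (QuadraticMap.polarBilin Q).Nondegenerate) (A B : ↥(Cfsg.isometryGroup F ⇑Q)) (hodd : Odd (orderOf A)) (hA : (orderOf A).Coprime p) : IsConj A B ↔ IsConj ((A : Matrix.GeneralLinearGroup ι F) : Matrix ι ι F) ((B : Matrix.GeneralLinearGroup ι F) : Matrix ι ι F) := by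
  classical
  constructor
  · intro h
    obtain ⟨c, hc⟩ := isConj_iff.mp h
    refine ⟨(c : Matrix.GeneralLinearGroup ι F), ?_⟩
    show ((c : Matrix.GeneralLinearGroup ι F) : Matrix ι ι F) *
      ((A : Matrix.GeneralLinearGroup ι F) : Matrix ι ι F) =
      ((B : Matrix.GeneralLinearGroup ι F) : Matrix ι ι F) *
      ((c : Matrix.GeneralLinearGroup ι F) : Matrix ι ι F)
    have h1 : c * A = B * c := mul_inv_eq_iff_eq_mul.mp hc
    have h2 := congrArg (fun z : ↥(Cfsg.isometryGroup F ⇑Q) =>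
      ((z : Matrix.GeneralLinearGroup ι F) : Matrix ι ι F)) h1
    exact h2
  · rintro ⟨c, hc⟩
    obtain ⟨G, hGdef⟩ : ∃ G : Matrix ι ι F,
        G = LinearMap.BilinForm.toMatrix' (QuadraticMap.polarBilin Q) := ⟨_, rfl⟩
    have hβ : ∀ u v : ι → F, QuadraticMap.polar (⇑Q) u v = u ⬝ᵥ G *ᵥ v := by
      intro u v
      have := congrArg (fun B : LinearMap.BilinForm F (ι → F) => B u v)
        (Matrix.toBilin'_toMatrix' (QuadraticMap.polarBilin Q))
      simp only [Matrix.toBilin'_apply'] at this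
      rw [← QuadraticMap.polarBilin_apply_apply, hGdef]
      exact this.symm
    have hGsym : Gᵀ = G := by
      apply mat_ext_bil
      intro v w
      rw [← dot_tr, ← hβ, dotProduct_comm, ← hβ, QuadraticMap.polar_comm]
    have hGu : IsUnit G := by
      rw [← Matrix.mulVec_injective_iff_isUnit]
      have key : ∀ v, G *ᵥ v = 0 → v = 0 := by
        intro v hv
        apply hQ.2
        intro u
        rw [QuadraticMap.polarBilin_apply_apply, hβ, hv, dotProduct_zero]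
      intro v w hvw
      have := key (v - w) (by rw [Matrix.mulVec_sub, hvw, sub_self])
      exact sub_eq_zero.mp this
    have hG : G * G⁻¹ = 1 := Matrix.mul_nonsing_inv _ ((Matrix.isUnit_iff_isUnit_det _).mp hGu)
    have hiso : ∀ g : ↥(Cfsg.isometryGroup F ⇑Q), ∀ v : ι → F,
        Q (((g : Matrix.GeneralLinearGroup ι F) : Matrix ι ι F) *ᵥ v) = Q v :=
      fun g v => g.2 v v
    have hAAi : ((A : Matrix.GeneralLinearGroup ι F) : Matrix ι ι F) *
        (((A⁻¹ : ↥(Cfsg.isometryGroup F ⇑Q)) : Matrix.GeneralLinearGroup ι F) :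
          Matrix ι ι F) = 1 := by
      have := congrArg (fun z : ↥(Cfsg.isometryGroup F ⇑Q) =>
        ((z : Matrix.GeneralLinearGroup ι F) : Matrix ι ι F)) (mul_inv_cancel A)
      exact this
    have hBBi : ((B : Matrix.GeneralLinearGroup ι F) : Matrix ι ι F) *
        (((B⁻¹ : ↥(Cfsg.isometryGroup F ⇑Q)) : Matrix.GeneralLinearGroup ι F) :
          Matrix ι ι F) = 1 := by
      have := congrArg (fun z : ↥(Cfsg.isometryGroup F ⇑Q) =>
        ((z : Matrix.GeneralLinearGroup ι F) : Matrix ι ι F)) (mul_inv_cancel B)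
      exact this
    have hkF : ((orderOf A : ℕ) : F) ≠ 0 := by
      rw [Ne, CharP.cast_eq_zero_iff F p (orderOf A)]
      exact (Nat.Prime.coprime_iff_not_dvd (Fact.out)).mp hA.symm
    have hAk : ((A : Matrix.GeneralLinearGroup ι F) : Matrix ι ι F) ^ (orderOf A)
        = 1 := by
      have := congrArg (fun z : ↥(Cfsg.isometryGroup F ⇑Q) =>
        ((z : Matrix.GeneralLinearGroup ι F) : Matrix ι ι F)) (pow_orderOf_eq_one A)
      exact this
    obtain ⟨s, si, hssi, hsA, hsQ⟩ := core_gen Q hQ G G⁻¹ hG hGsym hβ _ _ _ _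
      (c : Matrix ι ι F)
      ((c⁻¹ : (Matrix ι ι F)ˣ) : Matrix ι ι F) hAAi hBBi (Units.mul_inv c)
      (hiso A) (hiso B) hc (orderOf A) hodd hkF hAk
    rw [isConj_iff]
    refine ⟨⟨⟨s, si, hssi, mul_eq_one_comm.mp hssi⟩, fun u v => hsQ u⟩, ?_⟩
    rw [mul_inv_eq_iff_eq_mul]
    apply Subtype.ext
    apply Units.ext
    exact hsA




theorem conj_gen {F : Type*} [Field F] [Fintype F] {p : ℕ} [Fact p.Prime] [CharP F p]
    {ι : Type} [Fintype ι] [DecidableEq ι] (Q : QuadraticForm F (ι → F))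
    (hQ : (QuadraticMap.polarBilin Q).Nondegenerate) (Qf : (ι → F) → F) (hQf : Qf = ⇑Q)
    (A B : ↥(Cfsg.isometryGroup F Qf)) (hodd : Odd (orderOf A)) (hA : (orderOf A).Coprime p) :
    IsConj A B ↔ IsConj ((A : Matrix.GeneralLinearGroup ι F) : Matrix ι ι F)
      ((B : Matrix.GeneralLinearGroup ι F) : Matrix ι ι F) := by
  subst hQf
  exact main_gen Q hQ A B hodd hA

end Cfsg.Agent.Lib.helper18.OrthConj
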