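import Mathlib
import Cfsg.Agent.Lib.helper18.SpRz2
import Cfsg.Agent.Lib.helper18.OrthConj
import Cfsg.Agent.Lib.helper13.QuadNormal
import Cfsg.Agent.Lib.helper4.OrthForms
import Cfsg.Agent.S0289
import Cfsg.Agent.S0290

set_option autoImplicit false

namespace Cfsg.Agent.Lib.helper18.OrthRz

open Polynomial
open scoped Matrix
open Cfsg.Agent.Lib.helper18.RCF Cfsg.Agent.Lib.helper18.SpRz Cfsg.Agent.S2589

universe u
variable {F : Type u} [Field F]

/-- abstract peeling induction for multisets invariant under an involution -/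
theorem gen_multiset (R : F[X] → Prop) (hR1 : R 1)
    (hRmul : ∀ a b : F[X], a ≠ 0 → b ≠ 0 → R a → R b → R (a * b))
    (hRsq : R ((X - 1) ^ 2))
    (S : Finset F[X]) (σ : F[X] → F[X]) (i : ℕ)
    (hmon : ∀ P ∈ S, P.Monic ∧ P.natDegree = i)
    (hσS : ∀ P ∈ S, σ P ∈ S) (hinv : ∀ P ∈ S, σ (σ P) = P)
    (hat1 : ∀ P ∈ S, σ P = P → R P ∧ Even i)
    (hat2 : ∀ P ∈ S, σ P ≠ P → R (P * σ P)) :
    ∀ (n : ℕ) (M : Multiset F[X]), Multiset.card M = n → (∀ h ∈ M, h = X - 1 ∨ h ∈ S) →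
      M.map σ = M → Even (M.map natDegree).sum → R M.prod := by
  classical
  have hx0m : (X - 1 : F[X]).Monic := by simpa using monic_X_sub_C (1 : F)
  have hx0d : (X - 1 : F[X]).natDegree = 1 := by simpa using natDegree_X_sub_C (1 : F)
  have hmonM : ∀ M : Multiset F[X], (∀ h ∈ M, h = X - 1 ∨ h ∈ S) → M.prod.Monic := by
    intro M hM
    have := monic_multiset_prod_of_monic M id (fun h hh => by
      rcases hM h hh with rfl | hS
      · exact hx0m
      · exact (hmon h hS).1)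
    simpa using this
  have hRpow : ∀ k : ℕ, R (((X - 1 : F[X]) ^ 2) ^ k) := by
    intro k
    induction k with
    | zero => rw [pow_zero]; exact hR1
    | succ k ih =>
      rw [pow_succ]
      exact hRmul _ _ (pow_ne_zero _ (pow_ne_zero _ hx0m.ne_zero)) (pow_ne_zero _ hx0m.ne_zero)
        ih hRsq
  intro n
  induction n using Nat.strong_induction_on with
  | _ n ih =>
  intro M hcard hM hσ hev
  by_cases hex : ∃ h ∈ M, h ∈ S
  · obtain ⟨h, hh, hS⟩ := hex
    by_cases hfix : σ h = h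
    · obtain ⟨hz, hi2⟩ := hat1 h hS hfix
      have hM' : ∀ x ∈ M.erase h, x = X - 1 ∨ x ∈ S :=
        fun x hx => hM x (Multiset.mem_of_mem_erase hx)
      have e1 : M = h ::ₘ M.erase h := (Multiset.cons_erase hh).symm
      have e2 : (M.erase h).map σ = M.erase h := by
        have := hσ
        rw [e1, Multiset.map_cons, hfix] at this
        exact (Multiset.cons_inj_right h).1 this
      have e4 : Even ((M.erase h).map natDegree).sum := by
        rw [e1, Multiset.map_cons, Multiset.sum_cons, (hmon h hS).2] at hev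
        exact (Nat.even_add.1 hev).1 hi2
      have e5 := ih (Multiset.card (M.erase h)) (by
        rw [← hcard, Multiset.card_erase_of_mem hh, Nat.pred_eq_sub_one]
        have : 0 < Multiset.card M := Multiset.card_pos_iff_exists_mem.2 ⟨h, hh⟩
        omega) (M.erase h) rfl hM' e2 e4
      rw [e1, Multiset.prod_cons]
      exact hRmul _ _ (hmon h hS).1.ne_zero (hmonM _ hM').ne_zero hz e5
    · have hz := hat2 h hS hfix
      have hσh : σ h ∈ M := by
        rw [← hσ]
        exact Multiset.mem_map_of_mem σ hh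
      have hσh' : σ h ∈ M.erase h := (Multiset.mem_erase_of_ne hfix).2 hσh
      have e1 : M = h ::ₘ σ h ::ₘ (M.erase h).erase (σ h) := by
        rw [Multiset.cons_erase hσh', Multiset.cons_erase hh]
      have hM' : ∀ x ∈ (M.erase h).erase (σ h), x = X - 1 ∨ x ∈ S :=
        fun x hx => hM x (Multiset.mem_of_mem_erase (Multiset.mem_of_mem_erase hx))
      obtain ⟨M'', hM''⟩ : ∃ M'', M'' = (M.erase h).erase (σ h) := ⟨_, rfl⟩
      rw [← hM''] at e1 hM'
      have e2 : M''.map σ = M'' := by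
        have := hσ
        rw [e1, Multiset.map_cons, Multiset.map_cons, hinv h hS, Multiset.cons_swap] at this
        exact (Multiset.cons_inj_right _).1 ((Multiset.cons_inj_right _).1 this)
      have e4 : Even (M''.map natDegree).sum := by
        rw [e1, Multiset.map_cons, Multiset.sum_cons, Multiset.map_cons, Multiset.sum_cons,
          (hmon h hS).2, (hmon _ (hσS h hS)).2, ← add_assoc] at hev
        exact (Nat.even_add.1 hev).1 (Even.add_self i)
      have e5 := ih (Multiset.card M'') (by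
        have := congrArg Multiset.card e1
        rw [Multiset.card_cons, Multiset.card_cons] at this
        omega) M'' rfl hM' e2 e4
      rw [e1, Multiset.prod_cons, Multiset.prod_cons, ← mul_assoc]
      exact hRmul _ _ (mul_ne_zero (hmon h hS).1.ne_zero (hmon _ (hσS h hS)).1.ne_zero)
        (hmonM _ hM').ne_zero hz e5
  · have hall : ∀ h ∈ M, h = X - 1 := by
      intro h hh
      rcases hM h hh with h1 | h1
      · exact h1
      · exact absurd ⟨h, hh, h1⟩ hex
    have e1 : M = Multiset.replicate n (X - 1) := by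
      rw [← hcard]; exact Multiset.eq_replicate_card.2 hall
    rw [e1, Multiset.map_replicate, Multiset.sum_replicate, hx0d, smul_eq_mul, mul_one] at hev
    obtain ⟨k, hk⟩ := hev
    rw [e1, Multiset.prod_replicate, hk, ← two_mul, pow_mul]
    exact hRpow k

/-- `χ` is the characteristic polynomial of a fixed-point-free isometry `g`, `g ^ r = 1`, of the
quadratic form `v ↦ vᵀ Mq v` with nondegenerate polar form. -/
def Qz (r : ℕ) (χ : F[X]) : Prop :=
  ∃ (ι : Type) (_ : Fintype ι) (_ : DecidableEq ι) (g gi Mq Ni : Matrix ι ι F),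
    Fintype.card ι = χ.natDegree ∧ g * gi = 1 ∧ g ^ r = 1 ∧
    gᵀ * Mq * g = Mq ∧ (Mq + Mqᵀ) * Ni = 1 ∧ (∀ v : ι → F, g *ᵥ v = v → v = 0) ∧ g.charpoly = χ

theorem qz_one (r : ℕ) : Qz (F := F) r 1 := by
  refine ⟨Empty, inferInstance, inferInstance, 1, 1, 1, 1, ?_, ?_, ?_, ?_, ?_, ?_, ?_⟩
  · simp
  · simp
  · simp
  · simp
  · exact Subsingleton.elim _ _
  · intro v _; exact Subsingleton.elim _ _
  · simp [Matrix.charpoly]

theorem qz_mul (r : ℕ) (χ₁ χ₂ : F[X]) (h₁ : χ₁ ≠ 0) (h₂ : χ₂ ≠ 0) (r₁ : Qz r χ₁) (r₂ : Qz r χ₂) :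
    Qz r (χ₁ * χ₂) := by
  obtain ⟨ι₁, _, _, g₁, gi₁, M₁, N₁, hc₁, hg₁, hk₁, hM₁, hN₁, hf₁, hχ₁⟩ := r₁
  obtain ⟨ι₂, _, _, g₂, gi₂, M₂, N₂, hc₂, hg₂, hk₂, hM₂, hN₂, hf₂, hχ₂⟩ := r₂
  refine ⟨ι₁ ⊕ ι₂, inferInstance, inferInstance, Matrix.fromBlocks g₁ 0 0 g₂,
    Matrix.fromBlocks gi₁ 0 0 gi₂, Matrix.fromBlocks M₁ 0 0 M₂, Matrix.fromBlocks N₁ 0 0 N₂,
    ?_, ?_, ?_, ?_, ?_, ?_, ?_⟩
  · rw [Fintype.card_sum, hc₁, hc₂, natDegree_mul h₁ h₂]
  · rw [Matrix.fromBlocks_multiply]; simp [hg₁, hg₂]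
  · rw [Matrix.fromBlocks_diagonal_pow, hk₁, hk₂, Matrix.fromBlocks_one]
  · rw [Matrix.fromBlocks_transpose, Matrix.fromBlocks_multiply, Matrix.fromBlocks_multiply]
    simp [hM₁, hM₂]
  · rw [Matrix.fromBlocks_transpose, Matrix.fromBlocks_add, Matrix.fromBlocks_multiply]
    simp [hN₁, hN₂]
  · intro v hv
    rw [Matrix.fromBlocks_mulVec] at hv
    have e1 : g₁ *ᵥ (v ∘ Sum.inl) = v ∘ Sum.inl := by
      funext a
      have := congrFun hv (Sum.inl a)
      simpa using this
    have e2 : g₂ *ᵥ (v ∘ Sum.inr) = v ∘ Sum.inr := by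
      funext a
      have := congrFun hv (Sum.inr a)
      simpa using this
    have e3 := hf₁ _ e1
    have e4 := hf₂ _ e2
    funext a
    rcases a with a | a
    · exact congrFun e3 a
    · exact congrFun e4 a
  · rw [Matrix.charpoly_fromBlocks_zero₁₂, hχ₁, hχ₂]

theorem qz_self {i : ℕ} (r : ℕ) (hr : Odd r) (hrF : (r : F) ≠ 0) (A Ai : Matrix (Fin i) (Fin i) F)
    (hA : A ^ r = 1) (hAi : A * Ai = 1) (hirr : Irreducible A.charpoly) (hne : A ≠ 1)
    (hinv : Ai.charpoly = A.charpoly) : Qz r A.charpoly := by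
  have hAi' : Ai * A = 1 := mul_eq_one_comm.mp hAi
  have hAir : Ai ^ r = 1 := by
    have hcomm : Commute A Ai := by rw [Commute, SemiconjBy, hAi, hAi']
    have := hcomm.mul_pow r
    rw [hAi, one_pow, hA, one_mul] at this
    exact this.symm
  have hAiT : (Aiᵀ) ^ r = 1 := by rw [← Matrix.transpose_pow, hAir, Matrix.transpose_one]
  obtain ⟨g, gi, h1, h2, h3⟩ := ss_conj_mat A (Aiᵀ) r r hrF hrF hA hAiT
    (by rw [Matrix.charpoly_transpose, hinv])
  have hAT : Aᵀ * Aiᵀ = 1 := by rw [← Matrix.transpose_mul, hAi', Matrix.transpose_one]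
  have hAT' : Aiᵀ * Aᵀ = 1 := by rw [← Matrix.transpose_mul, hAi, Matrix.transpose_one]
  have hg : Aᵀ * g * A = g := by
    rw [Matrix.mul_assoc, h3, ← Matrix.mul_assoc, hAT, Matrix.one_mul]
  have hgA : Aᵀ * (g * A) * A = g * A := by
    rw [← Matrix.mul_assoc, hg]
  have hfix : ∀ v : Fin i → F, A *ᵥ v = v → v = 0 := by
    intro v hv
    by_contra hv0
    have hN0 : A - 1 ≠ 0 := fun h => hne (sub_eq_zero.1 h)
    obtain ⟨Ni, hNi⟩ := irr_inj A A (A - 1) hirr hN0 (by rw [Matrix.sub_mul, Matrix.mul_sub,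
      Matrix.one_mul, Matrix.mul_one])
    have hNi' : Ni * (A - 1) = 1 := mul_eq_one_comm.mp hNi
    apply hv0
    have : (A - 1) *ᵥ v = 0 := by rw [Matrix.sub_mulVec, hv, Matrix.one_mulVec, sub_self]
    calc v = (Ni * (A - 1)) *ᵥ v := by rw [hNi', Matrix.one_mulVec]
      _ = 0 := by rw [← Matrix.mulVec_mulVec, this, Matrix.mulVec_zero]
  have key : ∀ M : Matrix (Fin i) (Fin i) F, M + Mᵀ ≠ 0 → Aᵀ * M * A = M → Qz r A.charpoly := by
    intro M hN0 hM
    have hN : Aᵀ * (M + Mᵀ) * A = M + Mᵀ := by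
      have h2 := congrArg Matrix.transpose hM
      rw [Matrix.transpose_mul, Matrix.transpose_mul, Matrix.transpose_transpose,
        ← Matrix.mul_assoc] at h2
      rw [Matrix.mul_add, Matrix.add_mul, hM, h2]
    have hNA : (M + Mᵀ) * A = Aiᵀ * (M + Mᵀ) := by
      calc (M + Mᵀ) * A = (Aiᵀ * Aᵀ) * (M + Mᵀ) * A := by rw [hAT', Matrix.one_mul]
        _ = Aiᵀ * (Aᵀ * (M + Mᵀ) * A) := by simp only [Matrix.mul_assoc]
        _ = Aiᵀ * (M + Mᵀ) := by rw [hN]
    obtain ⟨Ni, hNi⟩ := irr_inj A (Aiᵀ) (M + Mᵀ) hirr hN0 hNA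
    exact ⟨Fin i, inferInstance, inferInstance, A, Ai, M, Ni,
      by rw [Matrix.charpoly_natDegree_eq_dim], hAi, hA, hM, hNi, hfix, rfl⟩
  by_cases hN1 : g + gᵀ = 0
  · by_cases hN2 : g * A + (g * A)ᵀ = 0
    · exfalso
      apply hne
      have e1 : gᵀ = -g := by rw [eq_neg_iff_add_eq_zero, add_comm]; exact hN1
      have e2 : g * A = Aᵀ * g := by
        have := eq_neg_of_add_eq_zero_left hN2
        rw [Matrix.transpose_mul, e1, Matrix.mul_neg, neg_neg] at this
        exact this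
      have e3 : Aᵀ = Aiᵀ := by
        calc Aᵀ = Aᵀ * (g * gi) := by rw [h1, Matrix.mul_one]
          _ = (Aᵀ * g) * gi := by rw [Matrix.mul_assoc]
          _ = (Aiᵀ * g) * gi := by rw [← e2, h3]
          _ = Aiᵀ := by rw [Matrix.mul_assoc, h1, Matrix.mul_one]
      have e4 : A = Ai := Matrix.transpose_injective e3
      have e5 : A * A = 1 := by
        rw [← e4] at hAi'
        exact hAi'
      obtain ⟨k, hk⟩ := hr
      have e6 : A ^ r = A := by
        rw [hk, pow_succ, pow_mul, pow_two, e5, one_pow, Matrix.one_mul]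
      rw [← e6, hA]
    · exact key _ hN2 hgA
  · exact key _ hN1 hg

theorem qz_prod (r : ℕ) (S : Finset F[X]) (hS : ∀ P ∈ S, P.Monic ∧ Qz r P) (M : Multiset F[X])
    (hM : ∀ h ∈ M, h ∈ S) : Qz r M.prod := by
  induction M using Multiset.induction_on with
  | empty => rw [Multiset.prod_zero]; exact qz_one r
  | cons a s ih =>
    have hs : ∀ h ∈ s, h ∈ S := fun h hh => hM h (Multiset.mem_cons_of_mem hh)
    have ha := hS a (hM a (Multiset.mem_cons_self a s))
    rw [Multiset.prod_cons]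
    have hmon : s.prod.Monic := by
      have := monic_multiset_prod_of_monic s id (fun h hh => (hS h (hs h hh)).1)
      simpa using this
    exact qz_mul r _ _ ha.1.ne_zero hmon.ne_zero ha.2 (ih hs)

/-- an isometry of a quadratic form with nondegenerate polar form has the characteristic
polynomial of its inverse -/
theorem iso_inv_charpoly {ι : Type} [Fintype ι] [DecidableEq ι] (Q : QuadraticForm F (ι → F))
    (hQ : (QuadraticMap.polarBilin Q).Nondegenerate) (A Ai : Matrix ι ι F) (hAAi : A * Ai = 1)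
    (hQA : ∀ v, Q (A *ᵥ v) = Q v) : Ai.charpoly = A.charpoly := by
  obtain ⟨G, hGdef⟩ : ∃ G : Matrix ι ι F,
      G = LinearMap.BilinForm.toMatrix' (QuadraticMap.polarBilin Q) := ⟨_, rfl⟩
  have hβ : ∀ u v : ι → F, QuadraticMap.polar (⇑Q) u v = u ⬝ᵥ G *ᵥ v := by
    intro u v
    have := congrArg (fun B : LinearMap.BilinForm F (ι → F) => B u v)
      (Matrix.toBilin'_toMatrix' (QuadraticMap.polarBilin Q))
    simp only [Matrix.toBilin'_apply'] at this
    rw [← QuadraticMap.polarBilin_apply_apply, hGdef]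
    exact this.symm
  have hGu : IsUnit G := by
    rw [← Matrix.mulVec_injective_iff_isUnit]
    have key : ∀ v, G *ᵥ v = 0 → v = 0 := by
      intro v hv
      apply hQ.2
      intro u
      rw [QuadraticMap.polarBilin_apply_apply, hβ, hv, dotProduct_zero]
    intro v w hvw
    have := key (v - w) (by rw [Matrix.mulVec_sub, hvw, sub_self])
    exact sub_eq_zero.mp this
  have hG : G * G⁻¹ = 1 := Matrix.mul_nonsing_inv _ ((Matrix.isUnit_iff_isUnit_det _).mp hGu)
  have hG' : G⁻¹ * G = 1 := Matrix.nonsing_inv_mul _ ((Matrix.isUnit_iff_isUnit_det _).mp hGu)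
  have hAGA : Aᵀ * G * A = G := by
    apply mat_ext_bil
    intro v w
    have h1 : QuadraticMap.polar (⇑Q) (A *ᵥ v) (A *ᵥ w) = QuadraticMap.polar (⇑Q) v w := by
      unfold QuadraticMap.polar
      rw [← Matrix.mulVec_add, hQA, hQA, hQA]
    rw [hβ, hβ] at h1
    rw [← h1, Matrix.mul_assoc, ← Matrix.mulVec_mulVec, ← dot_tr, Matrix.mulVec_mulVec]
  have hAi : Ai = G⁻¹ * (Aᵀ * G) := by
    have e1 : (G⁻¹ * (Aᵀ * G)) * A = 1 := by
      rw [Matrix.mul_assoc, hAGA, hG']
    calc Ai = ((G⁻¹ * (Aᵀ * G)) * A) * Ai := by rw [e1, Matrix.one_mul]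
      _ = G⁻¹ * (Aᵀ * G) := by rw [Matrix.mul_assoc, hAAi, Matrix.mul_one]
  rw [hAi, Matrix.charpoly_mul_comm, Matrix.mul_assoc, hG, Matrix.mul_one, Matrix.charpoly_transpose]

/-- counting zeros of an invariant function modulo `r` -/
theorem card_zero_modEq [Fintype F] {ι : Type} [Fintype ι] [DecidableEq ι] (r : ℕ) [Fact r.Prime]
    (g : Matrix ι ι F) (hgr : g ^ r = 1) (Qf : (ι → F) → F) (hQ : ∀ v, Qf (g *ᵥ v) = Qf v) :
    Nat.card {v : ι → F // Qf v = 0} ≡ Nat.card {v : ι → F // Qf v = 0 ∧ g *ᵥ v = v} [MOD r] := by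
  classical
  let f : Function.End {v : ι → F // Qf v = 0} := fun v => ⟨g *ᵥ v.1, by rw [hQ]; exact v.2⟩
  have hpow : ∀ (n : ℕ) (v : {v : ι → F // Qf v = 0}), ((f ^ n) v).1 = (g ^ n) *ᵥ v.1 := by
    intro n
    induction n with
    | zero =>
      intro v
      rw [pow_zero, pow_zero, Matrix.one_mulVec]
      rfl
    | succ n ih =>
      intro v
      have e1 : (f ^ (n + 1)) v = f ((f ^ n) v) := by rw [pow_succ']; rfl
      rw [e1]
      show g *ᵥ ((f ^ n) v).1 = _
      rw [ih, Matrix.mulVec_mulVec, ← pow_succ']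
  have hf : f ^ r ^ 1 = 1 := by
    funext v
    apply Subtype.ext
    rw [pow_one, hpow, hgr, Matrix.one_mulVec]
    rfl
  have h1 := Equiv.Perm.card_fixedPoints_modEq (p := r) (n := 1) hf
  have h2 : Fintype.card ↥(Function.fixedPoints f) =
      Nat.card {v : ι → F // Qf v = 0 ∧ g *ᵥ v = v} := by
    rw [← Nat.card_eq_fintype_card]
    apply Nat.card_congr
    exact ⟨fun x => ⟨x.1.1, x.1.2, congrArg Subtype.val x.2⟩,
      fun y => ⟨⟨y.1, y.2.1⟩, Subtype.ext y.2.2⟩, fun x => rfl, fun y => rfl⟩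
  rw [Nat.card_eq_fintype_card, ← h2]
  exact h1

end Cfsg.Agent.Lib.helper18.OrthRz
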