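import Mathlib
import Cfsg.Agent.Lib.helper18.OrthRz

set_option autoImplicit false

namespace Cfsg.Agent.Lib.helper18.OrthRz

open Polynomial
open scoped Matrix
open Cfsg.Agent.Lib.helper18.RCF Cfsg.Agent.Lib.helper18.SpRz Cfsg.Agent.S2589

universe u
variable {F : Type u} [Field F]

theorem to_plus [Fintype F] {q : ℕ} (hF : Fintype.card F = q) (r : ℕ) [Fact r.Prime] (hr2 : r ≠ 2)
    (hq1 : (q : ZMod r) ≠ 1) (hq0 : (q : ZMod r) ≠ 0) (m k : ℕ) (hm : 1 ≤ m) (hkm : k ≤ m)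
    (hsq : (q : ZMod r) ^ (2 * (m - k)) = 1)
    {ιb : Type} [Fintype ιb] [DecidableEq ιb] (g gi Mq Ni : Matrix ιb ιb F)
    (hcb : Fintype.card ιb = 2 * (m - k)) (hg : g * gi = 1) (hgr : g ^ r = 1)
    (hM : gᵀ * Mq * g = Mq) (hN : (Mq + Mqᵀ) * Ni = 1) (hfix : ∀ v : ιb → F, g *ᵥ v = v → v = 0)
    {ιd : Type} [Fintype ιd] [DecidableEq ιd] (hcd : Fintype.card ιd = 2 * k)
    (Qd : QuadraticForm F (ιd → F)) (hQd : (QuadraticMap.polarBilin Qd).Nondegenerate)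
    (hz : (q : ZMod r) * ((Nat.card {w : ιd → F // Qd w = 0} : ℕ) : ZMod r) =
      (q : ZMod r) ^ (2 * k) +
        (q : ZMod r) ^ (m - k) * ((q : ZMod r) ^ (k + 1) - (q : ZMod r) ^ k)) :
    ∃ s : ↥(Cfsg.isometryGroup F (Cfsg.quadFormPlus m F)),
      ((s : Matrix.GeneralLinearGroup (Fin m ⊕ Fin m) F) :
        Matrix (Fin m ⊕ Fin m) (Fin m ⊕ Fin m) F).charpoly = g.charpoly * (X - 1) ^ (2 * k) ∧
      s ^ r = 1 := by
  classical
  obtain ⟨G, hGdef⟩ : ∃ G : Matrix (ιb ⊕ ιd) (ιb ⊕ ιd) F, G = Matrix.fromBlocks g 0 0 1 :=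
    ⟨_, rfl⟩
  obtain ⟨Gi, hGidef⟩ : ∃ Gi : Matrix (ιb ⊕ ιd) (ιb ⊕ ιd) F, Gi = Matrix.fromBlocks gi 0 0 1 :=
    ⟨_, rfl⟩
  have hGGi : G * Gi = 1 := by
    rw [hGdef, hGidef, Matrix.fromBlocks_multiply]; simp [hg]
  have hGr : G ^ r = 1 := by
    rw [hGdef, Matrix.fromBlocks_diagonal_pow, hgr, one_pow, Matrix.fromBlocks_one]
  have hGv : ∀ v : ιb ⊕ ιd → F, G *ᵥ v = Sum.elim (g *ᵥ (v ∘ Sum.inl)) (v ∘ Sum.inr) := by
    intro v
    rw [hGdef, Matrix.fromBlocks_mulVec]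
    simp
  let Qb : QuadraticForm F (ιb → F) :=
    LinearMap.BilinMap.toQuadraticMap (Matrix.toLinearMap₂' F Mq)
  have hQb : ∀ v : ιb → F, Qb v = v ⬝ᵥ Mq *ᵥ v := by
    intro v
    show LinearMap.BilinMap.toQuadraticMap (Matrix.toLinearMap₂' F Mq) v = _
    rw [LinearMap.BilinMap.toQuadraticMap_apply, Matrix.toLinearMap₂'_apply']
  let Q : QuadraticForm F (ιb ⊕ ιd → F) :=
    Qb.comp (LinearMap.funLeft F F Sum.inl) + Qd.comp (LinearMap.funLeft F F Sum.inr)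
  have hQ : ∀ v : ιb ⊕ ιd → F,
      Q v = (v ∘ Sum.inl) ⬝ᵥ Mq *ᵥ (v ∘ Sum.inl) + Qd (v ∘ Sum.inr) := by
    intro v
    show Qb (LinearMap.funLeft F F Sum.inl v) + Qd (LinearMap.funLeft F F Sum.inr v) = _
    rw [hQb]
    rfl
  have hQG : ∀ v, Q (G *ᵥ v) = Q v := by
    intro v
    rw [hQ, hQ, hGv]
    have e1 : (Sum.elim (g *ᵥ (v ∘ Sum.inl)) (v ∘ Sum.inr) : ιb ⊕ ιd → F) ∘ Sum.inl =
        g *ᵥ (v ∘ Sum.inl) := rfl
    have e2 : (Sum.elim (g *ᵥ (v ∘ Sum.inl)) (v ∘ Sum.inr) : ιb ⊕ ιd → F) ∘ Sum.inr =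
        v ∘ Sum.inr := rfl
    rw [e1, e2, Matrix.mulVec_mulVec, dot_tr, Matrix.mulVec_mulVec, ← Matrix.mul_assoc, hM]
  have hQnd : (QuadraticMap.polarBilin Q).Nondegenerate := by
    apply Cfsg.Agent.S2562.nondeg_of_sep
    intro x hx
    have hpol : ∀ y, QuadraticMap.polar (⇑Q) x y =
        ((x ∘ Sum.inl) ⬝ᵥ (Mq + Mqᵀ) *ᵥ (y ∘ Sum.inl)) +
          QuadraticMap.polar (⇑Qd) (x ∘ Sum.inr) (y ∘ Sum.inr) := by
      intro y
      unfold QuadraticMap.polar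
      rw [hQ, hQ, hQ]
      have e1 : (x + y) ∘ Sum.inl = x ∘ Sum.inl + y ∘ Sum.inl := rfl
      have e2 : (x + y) ∘ Sum.inr = x ∘ Sum.inr + y ∘ Sum.inr := rfl
      have e3 : (x ∘ Sum.inl) ⬝ᵥ Mqᵀ *ᵥ (y ∘ Sum.inl) =
          (y ∘ Sum.inl) ⬝ᵥ Mq *ᵥ (x ∘ Sum.inl) := by
        rw [← dot_tr, dotProduct_comm]
      rw [e1, e2, Matrix.add_mulVec, Matrix.mulVec_add, add_dotProduct, dotProduct_add,
        dotProduct_add, dotProduct_add, e3]
      ring
    have hxb : x ∘ Sum.inl = 0 := by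
      funext l
      have h1 := hx (Sum.elim (Ni *ᵥ Pi.single l 1) 0)
      rw [hpol] at h1
      have e1 : (Sum.elim (Ni *ᵥ Pi.single l 1) 0 : ιb ⊕ ιd → F) ∘ Sum.inl =
          Ni *ᵥ Pi.single l 1 := rfl
      have e2 : (Sum.elim (Ni *ᵥ Pi.single l 1) 0 : ιb ⊕ ιd → F) ∘ Sum.inr = 0 := rfl
      rw [e1, e2, Matrix.mulVec_mulVec, hN, Matrix.one_mulVec, dotProduct_single_one,
        QuadraticMap.polar_zero_right, add_zero] at h1
      exact h1
    have hxd : x ∘ Sum.inr = 0 := by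
      apply hQd.1
      intro w
      have h1 := hx (Sum.elim 0 w)
      rw [hpol] at h1
      have e1 : (Sum.elim 0 w : ιb ⊕ ιd → F) ∘ Sum.inl = 0 := rfl
      have e2 : (Sum.elim 0 w : ιb ⊕ ιd → F) ∘ Sum.inr = w := rfl
      rw [e1, e2, Matrix.mulVec_zero, dotProduct_zero, zero_add] at h1
      rw [QuadraticMap.polarBilin_apply_apply]
      exact h1
    funext a
    rcases a with a | a
    · exact congrFun hxb a
    · exact congrFun hxd a
  have hV : Module.finrank F (ιb ⊕ ιd → F) = 2 * m := by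
    rw [Module.finrank_fintype_fun_eq_card, Fintype.card_sum, hcb, hcd]
    omega
  have hfixG : ∀ v : ιb ⊕ ιd → F, G *ᵥ v = v → v ∘ Sum.inl = 0 := by
    intro v hv
    apply hfix
    have := congrArg (fun u : ιb ⊕ ιd → F => u ∘ Sum.inl) hv
    rw [hGv] at this
    exact this
  rcases Cfsg.Agent.Lib.helper13.quad_classify hV Q hQnd with ⟨φ, hφ⟩ | ⟨k', ζ, hmk, hζ, φ, hφ⟩
  · obtain ⟨P, hP⟩ : ∃ P : Matrix (Fin m ⊕ Fin m) (ιb ⊕ ιd) F,
        P = LinearMap.toMatrix' (φ : (ιb ⊕ ιd → F) →ₗ[F] (Fin m ⊕ Fin m → F)) := ⟨_, rfl⟩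
    obtain ⟨Pi, hPi⟩ : ∃ Pi : Matrix (ιb ⊕ ιd) (Fin m ⊕ Fin m) F,
        Pi = LinearMap.toMatrix' (φ.symm : (Fin m ⊕ Fin m → F) →ₗ[F] (ιb ⊕ ιd → F)) := ⟨_, rfl⟩
    have hPx : ∀ x, P *ᵥ x = φ x := by
      intro x
      rw [hP, ← Matrix.toLin'_apply, Matrix.toLin'_toMatrix']
      rfl
    have hPix : ∀ x, Pi *ᵥ x = φ.symm x := by
      intro x
      rw [hPi, ← Matrix.toLin'_apply, Matrix.toLin'_toMatrix']
      rfl
    have hPPi : P * Pi = 1 := by
      rw [hP, hPi, ← LinearMap.toMatrix'_comp, ← LinearMap.toMatrix'_id]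
      congr 1
      apply LinearMap.ext
      intro x
      simp
    have hPiP : Pi * P = 1 := by
      rw [hP, hPi, ← LinearMap.toMatrix'_comp, ← LinearMap.toMatrix'_id]
      congr 1
      apply LinearMap.ext
      intro x
      simp
    have hsQ : ∀ w, Cfsg.quadFormPlus m F ((P * G * Pi) *ᵥ w) = Cfsg.quadFormPlus m F w := by
      intro w
      rw [← Matrix.mulVec_mulVec, ← Matrix.mulVec_mulVec, hPx, hPix, ← hφ, hQG, hφ,
        LinearEquiv.apply_symm_apply]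
    have hpow : ∀ j : ℕ, (P * G * Pi) ^ j = P * G ^ j * Pi := by
      intro j
      induction j with
      | zero => rw [pow_zero, pow_zero, Matrix.mul_one, hPPi]
      | succ j ih =>
        rw [pow_succ, ih, pow_succ]
        calc P * G ^ j * Pi * (P * G * Pi) = P * G ^ j * (Pi * P) * G * Pi := by
              simp only [Matrix.mul_assoc]
          _ = P * (G ^ j * G) * Pi := by rw [hPiP, Matrix.mul_one]; simp only [Matrix.mul_assoc]
    have hssi : (P * G * Pi) * (P * Gi * Pi) = 1 := by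
      calc (P * G * Pi) * (P * Gi * Pi) = P * G * (Pi * P) * Gi * Pi := by
            simp only [Matrix.mul_assoc]
        _ = P * (G * Gi) * Pi := by rw [hPiP, Matrix.mul_one]; simp only [Matrix.mul_assoc]
        _ = 1 := by rw [hGGi, Matrix.mul_one, hPPi]
    refine ⟨⟨⟨P * G * Pi, P * Gi * Pi, hssi, mul_eq_one_comm.mp hssi⟩, fun u v => hsQ u⟩, ?_, ?_⟩
    · show (P * G * Pi).charpoly = _
      have h2 : G * Pi * P = G := by rw [Matrix.mul_assoc, hPiP, Matrix.mul_one]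
      have h3 := Matrix.charpoly_mul_comm' P (G * Pi)
      have hcard : Fintype.card (ιb ⊕ ιd) = Fintype.card (Fin m ⊕ Fin m) := by
        rw [Fintype.card_sum, hcb, hcd, Fintype.card_sum, Fintype.card_fin]
        omega
      rw [h2, hcard] at h3
      rw [Matrix.mul_assoc, mul_left_cancel₀ (pow_ne_zero _ X_ne_zero) h3, hGdef,
        Matrix.charpoly_fromBlocks_zero₁₂, Matrix.charpoly_one, hcd]
    · apply Subtype.ext
      apply Units.ext
      rw [SubgroupClass.coe_pow, Units.val_pow_eq_pow_val]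
      show (P * G * Pi) ^ r = 1
      rw [hpow, hGr, Matrix.mul_one, hPPi]
  · exfalso
    obtain rfl : k' = m - 1 := by omega
    have hanis : ∀ z₁ z₂ : F, z₁ ^ 2 + 1 * z₁ * z₂ + ζ * z₂ ^ 2 = 0 → z₁ = 0 ∧ z₂ = 0 := by
      intro z₁ z₂ h
      by_cases hz2 : z₂ = 0
      · subst hz2
        simp at h
        exact ⟨h, rfl⟩
      · exfalso
        apply hζ (z₁ / z₂)
        field_simp
        linear_combination h
    have hcount := Cfsg.Agent.S0290.result hF m hm 1 ζ hanis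
    have hcQ : Nat.card {v : ιb ⊕ ιd → F // Q v = 0} = q ^ (2 * m - 1) + q ^ (m - 1) - q ^ m := by
      rw [← hcount]
      apply Nat.card_congr
      exact ⟨fun v => ⟨φ v.1, by rw [← hφ]; exact v.2⟩,
        fun w => ⟨φ.symm w.1, by rw [hφ, LinearEquiv.apply_symm_apply]; exact w.2⟩,
        fun v => Subtype.ext (LinearEquiv.symm_apply_apply φ v.1),
        fun w => Subtype.ext (LinearEquiv.apply_symm_apply φ w.1)⟩
    have hmod := card_zero_modEq r G hGr (⇑Q) hQG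
    have hfixc : Nat.card {v : ιb ⊕ ιd → F // Q v = 0 ∧ G *ᵥ v = v} =
        Nat.card {w : ιd → F // Qd w = 0} := by
      apply Nat.card_congr
      refine ⟨fun v => ⟨v.1 ∘ Sum.inr, ?_⟩, fun w => ⟨Sum.elim 0 w.1, ?_, ?_⟩, ?_, ?_⟩
      · have h1 := v.2.1
        rw [hQ, hfixG v.1 v.2.2, Matrix.mulVec_zero, dotProduct_zero, zero_add] at h1
        exact h1
      · rw [hQ]
        have e1 : (Sum.elim 0 w.1 : ιb ⊕ ιd → F) ∘ Sum.inl = 0 := rfl
        have e2 : (Sum.elim 0 w.1 : ιb ⊕ ιd → F) ∘ Sum.inr = w.1 := rfl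
        rw [e1, e2, Matrix.mulVec_zero, dotProduct_zero, zero_add]
        exact w.2
      · rw [hGv]
        have e1 : (Sum.elim 0 w.1 : ιb ⊕ ιd → F) ∘ Sum.inl = 0 := rfl
        have e2 : (Sum.elim 0 w.1 : ιb ⊕ ιd → F) ∘ Sum.inr = w.1 := rfl
        rw [e1, e2, Matrix.mulVec_zero]
      · intro v
        apply Subtype.ext
        have hb := hfixG v.1 v.2.2
        funext a
        rcases a with a | a
        · exact (congrFun hb a).symm
        · rfl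
      · intro w
        rfl
    have hcast : ((Nat.card {v : ιb ⊕ ιd → F // Q v = 0} : ℕ) : ZMod r) =
        ((Nat.card {w : ιd → F // Qd w = 0} : ℕ) : ZMod r) := by
      rw [← hfixc]
      exact (ZMod.natCast_eq_natCast_iff _ _ _).2 hmod
    have hqpos : 0 < q := by rw [← hF]; exact Fintype.card_pos
    have hqz : (q : ZMod r) * ((Nat.card {v : ιb ⊕ ιd → F // Q v = 0} : ℕ) : ZMod r) =
        (q : ZMod r) ^ (2 * m) + (q : ZMod r) ^ m - (q : ZMod r) ^ (m + 1) := by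
      rw [hcQ]
      have hle : q ^ m ≤ q ^ (2 * m - 1) + q ^ (m - 1) :=
        le_trans (Nat.pow_le_pow_right hqpos (by omega)) (Nat.le_add_right _ _)
      rw [Nat.cast_sub hle]
      push_cast
      have e1 : (q : ZMod r) * (q : ZMod r) ^ (2 * m - 1) = (q : ZMod r) ^ (2 * m) := by
        rw [← pow_succ']; congr 1; omega
      have e2 : (q : ZMod r) * (q : ZMod r) ^ (m - 1) = (q : ZMod r) ^ m := by
        rw [← pow_succ']; congr 1; omega
      rw [mul_sub, mul_add, e1, e2, pow_succ]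
      ring
    have e3 : (q : ZMod r) ^ (2 * m) = (q : ZMod r) ^ (2 * k) := by
      have : 2 * m = 2 * (m - k) + 2 * k := by omega
      rw [this, pow_add, hsq, one_mul]
    have e4 : (q : ZMod r) ^ (m - k) * (q : ZMod r) ^ (k + 1) = (q : ZMod r) ^ (m + 1) := by
      rw [← pow_add]; congr 1; omega
    have e5 : (q : ZMod r) ^ (m - k) * (q : ZMod r) ^ k = (q : ZMod r) ^ m := by
      rw [← pow_add]; congr 1; omega
    have h2 : (2 : ZMod r) ≠ 0 := by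
      intro h
      have h' : ((2 : ℕ) : ZMod r) = 0 := by exact_mod_cast h
      rw [ZMod.natCast_eq_zero_iff] at h'
      exact hr2 ((Nat.prime_dvd_prime_iff_eq (Fact.out : r.Prime) Nat.prime_two).1 h')
    have key : (2 : ZMod r) * (q : ZMod r) ^ m * (1 - (q : ZMod r)) = 0 := by
      have := hqz
      rw [hcast, hz, e3, mul_sub, e4, e5] at this
      linear_combination (-1 : ZMod r) * this
    rcases mul_eq_zero.1 key with h | h
    · rcases mul_eq_zero.1 h with h | h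
      · exact h2 h
      · exact pow_ne_zero _ hq0 h
    · exact hq1 (sub_eq_zero.1 h).symm

theorem hyp_to_plus {ι : Type} [Fintype ι] [DecidableEq ι] (m r : ℕ) (hc : Fintype.card ι = m)
    (C Ci : Matrix ι ι F) (hC : C * Ci = 1) (hCr : C ^ r = 1) :
    ∃ s : ↥(Cfsg.isometryGroup F (Cfsg.quadFormPlus m F)),
      ((s : Matrix.GeneralLinearGroup (Fin m ⊕ Fin m) F) :
        Matrix (Fin m ⊕ Fin m) (Fin m ⊕ Fin m) F).charpoly = C.charpoly * Ci.charpoly ∧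
      s ^ r = 1 := by
  obtain ⟨e⟩ : Nonempty (ι ≃ Fin m) := ⟨Fintype.equivFinOfCardEq hc⟩
  obtain ⟨C', hC'⟩ : ∃ C' : Matrix (Fin m) (Fin m) F, C' = Matrix.reindexAlgEquiv F F e C :=
    ⟨_, rfl⟩
  obtain ⟨Ci', hCi'⟩ : ∃ Ci' : Matrix (Fin m) (Fin m) F, Ci' = Matrix.reindexAlgEquiv F F e Ci :=
    ⟨_, rfl⟩
  have h1 : C' * Ci' = 1 := by rw [hC', hCi', ← map_mul, hC, map_one]
  have h1' : Ci' * C' = 1 := mul_eq_one_comm.mp h1
  have h2 : C' ^ r = 1 := by rw [hC', ← map_pow, hCr, map_one]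
  have hcp1 : C'.charpoly = C.charpoly := by
    rw [hC', Matrix.coe_reindexAlgEquiv]; exact Matrix.charpoly_reindex e C
  have hcp2 : Ci'.charpoly = Ci.charpoly := by
    rw [hCi', Matrix.coe_reindexAlgEquiv]; exact Matrix.charpoly_reindex e Ci
  have hT : C'ᵀ * Ci'ᵀ = 1 := by rw [← Matrix.transpose_mul, h1', Matrix.transpose_one]
  have hT' : Ci'ᵀ * C'ᵀ = 1 := by rw [← Matrix.transpose_mul, h1, Matrix.transpose_one]
  have hCir : Ci' ^ r = 1 := by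
    have hcomm : Commute C' Ci' := by rw [Commute, SemiconjBy, h1, h1']
    have := hcomm.mul_pow r
    rw [h1, one_pow, h2, one_mul] at this
    exact this.symm
  have hssi : Matrix.fromBlocks C' 0 0 Ci'ᵀ * Matrix.fromBlocks Ci' 0 0 C'ᵀ = 1 := by
    rw [Matrix.fromBlocks_multiply]; simp [h1, hT']
  have hsQ : ∀ v, Cfsg.quadFormPlus m F (Matrix.fromBlocks C' 0 0 Ci'ᵀ *ᵥ v) =
      Cfsg.quadFormPlus m F v := by
    intro v
    have e1 : ∀ w : Fin m ⊕ Fin m → F,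
        Cfsg.quadFormPlus m F w = (w ∘ Sum.inl) ⬝ᵥ (w ∘ Sum.inr) := fun w => rfl
    rw [e1, e1, Matrix.fromBlocks_mulVec]
    have e2 : (Sum.elim (C' *ᵥ (v ∘ Sum.inl) + (0 : Matrix (Fin m) (Fin m) F) *ᵥ (v ∘ Sum.inr))
        ((0 : Matrix (Fin m) (Fin m) F) *ᵥ (v ∘ Sum.inl) + Ci'ᵀ *ᵥ (v ∘ Sum.inr)) :
          Fin m ⊕ Fin m → F) ∘ Sum.inl = C' *ᵥ (v ∘ Sum.inl) := by
      funext a; simp
    have e3 : (Sum.elim (C' *ᵥ (v ∘ Sum.inl) + (0 : Matrix (Fin m) (Fin m) F) *ᵥ (v ∘ Sum.inr))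
        ((0 : Matrix (Fin m) (Fin m) F) *ᵥ (v ∘ Sum.inl) + Ci'ᵀ *ᵥ (v ∘ Sum.inr)) :
          Fin m ⊕ Fin m → F) ∘ Sum.inr = Ci'ᵀ *ᵥ (v ∘ Sum.inr) := by
      funext a; simp
    rw [e2, e3, dot_tr, Matrix.mulVec_mulVec, hT, Matrix.one_mulVec]
  refine ⟨⟨⟨Matrix.fromBlocks C' 0 0 Ci'ᵀ, Matrix.fromBlocks Ci' 0 0 C'ᵀ, hssi,
    mul_eq_one_comm.mp hssi⟩, fun u v => hsQ u⟩, ?_, ?_⟩
  · show (Matrix.fromBlocks C' 0 0 Ci'ᵀ).charpoly = _
    rw [Matrix.charpoly_fromBlocks_zero₁₂, Matrix.charpoly_transpose, hcp1, hcp2]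
  · apply Subtype.ext
    apply Units.ext
    rw [SubgroupClass.coe_pow, Units.val_pow_eq_pow_val]
    show (Matrix.fromBlocks C' 0 0 Ci'ᵀ) ^ r = 1
    rw [Matrix.fromBlocks_diagonal_pow, h2, ← Matrix.transpose_pow, hCir, Matrix.transpose_one,
      Matrix.fromBlocks_one]

theorem card_multiset_eq {α : Type*} [DecidableEq α] (x₀ : α) (S : Finset α) (hx : x₀ ∉ S)
    (hS : 0 < S.card) (N : ℕ) (hN : 1 ≤ N) :
    Nat.card {M' : Multiset α // (∀ h ∈ M', h ∈ S) ∧ Multiset.card M' = N} =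
      (N + S.card - 1).choose (S.card - 1) := by
  have h1 := card_multiset_le x₀ S hx N
  have h0 := card_multiset_le x₀ S hx (N - 1)
  have hfin : Finite {M' : Multiset α // (∀ h ∈ M', h ∈ S) ∧ Multiset.card M' ≤ N - 1} := by
    apply Nat.finite_of_card_ne_zero
    rw [h0]
    exact (Nat.choose_pos (Nat.le_add_left _ _)).ne'
  have h3 : {M' : Multiset α | (∀ h ∈ M', h ∈ S) ∧ Multiset.card M' = N} =
      {M' : Multiset α | (∀ h ∈ M', h ∈ S) ∧ Multiset.card M' ≤ N} \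
        {M' : Multiset α | (∀ h ∈ M', h ∈ S) ∧ Multiset.card M' ≤ N - 1} := by
    ext M'
    simp only [Set.mem_setOf_eq, Set.mem_diff]
    constructor
    · rintro ⟨h1, h2⟩
      exact ⟨⟨h1, h2.le⟩, fun h => by omega⟩
    · rintro ⟨⟨h1, h2⟩, h3⟩
      refine ⟨h1, ?_⟩
      by_contra h4
      exact h3 ⟨h1, by omega⟩
  have h4 : Nat.card {M' : Multiset α // (∀ h ∈ M', h ∈ S) ∧ Multiset.card M' = N} =
      Set.ncard {M' : Multiset α | (∀ h ∈ M', h ∈ S) ∧ Multiset.card M' = N} :=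
    _root_.Nat.card_coe_set_eq _
  have h5 : Nat.card {M' : Multiset α // (∀ h ∈ M', h ∈ S) ∧ Multiset.card M' ≤ N} =
      Set.ncard {M' : Multiset α | (∀ h ∈ M', h ∈ S) ∧ Multiset.card M' ≤ N} :=
    _root_.Nat.card_coe_set_eq _
  have h6 : Nat.card {M' : Multiset α // (∀ h ∈ M', h ∈ S) ∧ Multiset.card M' ≤ N - 1} =
      Set.ncard {M' : Multiset α | (∀ h ∈ M', h ∈ S) ∧ Multiset.card M' ≤ N - 1} :=
    _root_.Nat.card_coe_set_eq _
  have hsub : {M' : Multiset α | (∀ h ∈ M', h ∈ S) ∧ Multiset.card M' ≤ N - 1} ⊆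
      {M' : Multiset α | (∀ h ∈ M', h ∈ S) ∧ Multiset.card M' ≤ N} := by
    intro M' hM'
    exact ⟨hM'.1, le_trans hM'.2 (Nat.sub_le _ _)⟩
  rw [h4, h3, Set.ncard_sdiff hsub (Set.finite_coe_iff.1 hfin), ← h5, ← h6, h1, h0]
  obtain ⟨t, ht⟩ : ∃ t, S.card = t + 1 := ⟨S.card - 1, by omega⟩
  obtain ⟨n, hn⟩ : ∃ n, N = n + 1 := ⟨N - 1, by omega⟩
  rw [ht, hn]
  have e1 : n + 1 + (t + 1) = (n + t + 1) + 1 := by ring
  have e2 : n + 1 - 1 + (t + 1) = n + t + 1 := by omega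
  have e3 : n + 1 + (t + 1) - 1 = n + t + 1 := by omega
  have e4 : t + 1 - 1 = t := by omega
  rw [e3, e4, e2, e1, Nat.choose_succ_succ', Nat.add_sub_cancel]

theorem card_excl {α : Type*} [DecidableEq α] (x₀ : α) (S : Finset α) (hx : x₀ ∉ S)
    (hS : 0 < S.card) (i n : ℕ) (hi : 0 < i) (hn : 0 < n) :
    Nat.card {M' : Multiset α // (∀ h ∈ M', h ∈ S) ∧ ((Multiset.card M' ≠ 0 ∧
      Multiset.card M' ≤ n / i) ∧ ¬ (i * Multiset.card M' = n ∧ Odd (Multiset.card M')))} =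
    (n / i + S.card).choose S.card - 1 -
      (if i ∣ n ∧ Odd (n / i) then (n / i + S.card - 1).choose (S.card - 1) else 0) := by
  have h1 := card_multiset_le_ne x₀ S hx (n / i)
  by_cases hex : i ∣ n ∧ Odd (n / i)
  · rw [if_pos hex]
    obtain ⟨hd, hodd⟩ := hex
    have hN : 1 ≤ n / i := Nat.div_pos (Nat.le_of_dvd hn hd) hi
    have h2 := card_multiset_eq x₀ S hx hS (n / i) hN
    have hfin : Finite {M' : Multiset α // (∀ h ∈ M', h ∈ S) ∧ Multiset.card M' = n / i} := by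
      apply Nat.finite_of_card_ne_zero
      rw [h2]
      exact (Nat.choose_pos (by omega)).ne'
    have h3 : {M' : Multiset α | (∀ h ∈ M', h ∈ S) ∧ ((Multiset.card M' ≠ 0 ∧
        Multiset.card M' ≤ n / i) ∧ ¬ (i * Multiset.card M' = n ∧ Odd (Multiset.card M')))} =
        {M' : Multiset α | (∀ h ∈ M', h ∈ S) ∧ (Multiset.card M' ≠ 0 ∧
          Multiset.card M' ≤ n / i)} \
        {M' : Multiset α | (∀ h ∈ M', h ∈ S) ∧ Multiset.card M' = n / i} := by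
      ext M'
      simp only [Set.mem_setOf_eq, Set.mem_diff]
      constructor
      · rintro ⟨h1, h2, h3⟩
        refine ⟨⟨h1, h2⟩, ?_⟩
        rintro ⟨-, h4⟩
        apply h3
        rw [h4]
        exact ⟨Nat.mul_div_cancel' hd, hodd⟩
      · rintro ⟨⟨h1, h2⟩, h3⟩
        refine ⟨h1, h2, ?_⟩
        rintro ⟨h4, -⟩
        apply h3
        refine ⟨h1, ?_⟩
        rw [← h4, Nat.mul_div_cancel_left _ hi]
    have h4 : Nat.card {M' : Multiset α // (∀ h ∈ M', h ∈ S) ∧ ((Multiset.card M' ≠ 0 ∧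
        Multiset.card M' ≤ n / i) ∧ ¬ (i * Multiset.card M' = n ∧ Odd (Multiset.card M')))} =
        Set.ncard {M' : Multiset α | (∀ h ∈ M', h ∈ S) ∧ ((Multiset.card M' ≠ 0 ∧
        Multiset.card M' ≤ n / i) ∧ ¬ (i * Multiset.card M' = n ∧ Odd (Multiset.card M')))} :=
      _root_.Nat.card_coe_set_eq _
    have h5 : Nat.card {M' : Multiset α // (∀ h ∈ M', h ∈ S) ∧ (Multiset.card M' ≠ 0 ∧
        Multiset.card M' ≤ n / i)} =
        Set.ncard {M' : Multiset α | (∀ h ∈ M', h ∈ S) ∧ (Multiset.card M' ≠ 0 ∧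
        Multiset.card M' ≤ n / i)} :=
      _root_.Nat.card_coe_set_eq _
    have h6 : Nat.card {M' : Multiset α // (∀ h ∈ M', h ∈ S) ∧ Multiset.card M' = n / i} =
        Set.ncard {M' : Multiset α | (∀ h ∈ M', h ∈ S) ∧ Multiset.card M' = n / i} :=
      _root_.Nat.card_coe_set_eq _
    have hsub : {M' : Multiset α | (∀ h ∈ M', h ∈ S) ∧ Multiset.card M' = n / i} ⊆
        {M' : Multiset α | (∀ h ∈ M', h ∈ S) ∧ (Multiset.card M' ≠ 0 ∧
          Multiset.card M' ≤ n / i)} := by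
      intro M' hM'
      exact ⟨hM'.1, by rw [hM'.2]; omega, hM'.2.le⟩
    rw [h4, h3, Set.ncard_sdiff hsub (Set.finite_coe_iff.1 hfin), ← h5, ← h6, h1, h2]
  · rw [if_neg hex, Nat.sub_zero, ← h1]
    apply Nat.card_congr
    refine Equiv.subtypeEquivRight (fun M' => ⟨fun h => ⟨h.1, h.2.1⟩, fun h => ⟨h.1, h.2, ?_⟩⟩)
    rintro ⟨h4, h5⟩
    apply hex
    have hd : i ∣ n := ⟨_, h4.symm⟩
    refine ⟨hd, ?_⟩
    rw [← h4, Nat.mul_div_cancel_left _ hi]
    exact h5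

end Cfsg.Agent.Lib.helper18.OrthRz
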