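import Mathlib

namespace Cfsg.Agent.Lib.helper18.S1451T

open scoped commutatorElement

theorem central_sylow_le_comm {L : Type*} [Group L] [Finite L] (q : ℕ) [Fact q.Prime]
    (P : Sylow q L) (hPc : (P : Subgroup L) ≤ Subgroup.center L)
    (hPd : (P : Subgroup L) ≤ commutator L) : (P : Subgroup L) = ⊥ := by
  have hC : Subgroup.centralizer ((P : Subgroup L) : Set L) = ⊤ :=
    Subgroup.centralizer_eq_top_iff_subset.2 hPc
  have hP : Subgroup.normalizer ((P : Subgroup L) : Set L) ≤ Subgroup.centralizer ((P : Subgroup L) : Set L) := by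
    rw [hC]; exact le_top
  have hcomm : ∀ a b : (P : Subgroup L), a * b = b * a := by
    intro a b
    apply Subtype.ext
    exact (Subgroup.mem_center_iff.1 (hPc b.2) a.1)
  have hker : commutator L ≤ (MonoidHom.transferSylow P hP).ker := by
    rw [commutator_eq_closure, Subgroup.closure_le]
    rintro x ⟨a, b, rfl⟩
    rw [SetLike.mem_coe, MonoidHom.mem_ker, commutatorElement_def, map_mul, map_mul, map_mul,
      map_inv, map_inv,
      hcomm (MonoidHom.transferSylow P hP a) (MonoidHom.transferSylow P hP b)]
    group
  have hdis := MonoidHom.ker_transferSylow_disjoint P hP (P : Subgroup L) P.2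
  rw [eq_bot_iff]
  exact hdis (hPd.trans hker) le_rfl

theorem char_le_comm_normal {G : Type*} [Group G] [Finite G]
    (hnil : Group.IsNilpotent ↥(commutator G)) (q : ℕ) [Fact q.Prime] (S : Sylow q G)
    (T : Subgroup ↥(S : Subgroup G)) (hT : T.Characteristic)
    (hle : T.map (S : Subgroup G).subtype ≤ ⁅(S : Subgroup G), (S : Subgroup G)⁆) :
    (T.map (S : Subgroup G).subtype).Normal := by
  classical
  obtain ⟨T', hT'⟩ : ∃ T' : Subgroup G, T' = T.map (S : Subgroup G).subtype := ⟨_, rfl⟩
  rw [← hT'] at hle ⊢
  have hTK : T' ≤ commutator G := by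
    refine hle.trans ?_
    rw [commutator_def]
    exact Subgroup.commutator_mono le_top le_top
  have hTS : T' ≤ (S : Subgroup G) := by
    rw [hT']
    rintro x ⟨t, -, rfl⟩
    exact t.2
  have key : ∀ X : Subgroup G, (∀ g ∈ X, ∀ h ∈ T', g * h * g⁻¹ ∈ T') → X ≤ Subgroup.normalizer (T' : Set G) := by
    intro X hX g hg
    rw [Subgroup.mem_normalizer_iff]
    intro h
    constructor
    · exact hX g hg h
    · intro hh
      have := hX g⁻¹ (inv_mem hg) _ hh
      simpa [mul_assoc] using this
  have h1 : Subgroup.normalizer ((S : Subgroup G) : Set G) ≤ Subgroup.normalizer (T' : Set G) := by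
    apply key
    intro g hg h hh
    rw [hT'] at hh ⊢
    obtain ⟨t, ht, rfl⟩ := Subgroup.mem_map.1 hh
    have hmem : ∀ s : (S : Subgroup G), g * (s : G) * g⁻¹ ∈ (S : Subgroup G) :=
      fun s => (Subgroup.mem_normalizer_iff.1 hg s.1).1 s.2
    let ψ : (S : Subgroup G) →* (S : Subgroup G) :=
      { toFun := fun s => ⟨g * (s : G) * g⁻¹, hmem s⟩
        map_one' := by apply Subtype.ext; simp
        map_mul' := by intro a b; apply Subtype.ext; simp }
    have hinj : Function.Injective ψ := by
      intro a b hab
      have h2 : g * (a : G) * g⁻¹ = g * (b : G) * g⁻¹ := congrArg Subtype.val hab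
      apply Subtype.ext
      simpa using h2
    let φ : (S : Subgroup G) ≃* (S : Subgroup G) :=
      MulEquiv.ofBijective ψ (Finite.injective_iff_bijective.1 hinj)
    have hmap := Subgroup.characteristic_iff_map_le.1 hT φ
    have h3 : φ t ∈ T := hmap (Subgroup.mem_map_of_mem _ ht)
    exact Subgroup.mem_map.2 ⟨φ t, h3, rfl⟩
  have hKn : ∀ (r : ℕ) [Fact r.Prime] (R : Sylow r (commutator G)),
      (R : Subgroup (commutator G)).Normal := by
    intro r hrF R
    have h03 : Group.IsNilpotent (commutator G) ↔ ∀ (p : ℕ) (_hp : Fact p.Prime)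
        (P : Sylow p (commutator G)), (P : Subgroup (commutator G)).Normal :=
      (isNilpotent_of_finite_tfae (G := commutator G)).out 0 3
    exact h03.1 hnil r hrF R
  have hS : (S : Subgroup G) ≤ Subgroup.normalizer (T' : Set G) := Subgroup.le_normalizer.trans h1
  have h2 : commutator G ≤ Subgroup.normalizer (T' : Set G) := by
    rw [← Subgroup.subgroupOf_eq_top, ← Subgroup.index_eq_one]
    by_contra hne
    obtain ⟨r, hr, hrdvd⟩ := Nat.exists_prime_and_dvd hne
    have : Fact r.Prime := ⟨hr⟩
    obtain ⟨R⟩ : Nonempty (Sylow r (commutator G)) := inferInstance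
    have hRn := hKn r R
    have hRle : (R : Subgroup (commutator G)) ≤ (Subgroup.normalizer (T' : Set G)).subgroupOf (commutator G) := by
      by_cases hrq : r = q
      · subst hrq
        have := hRn
        have : (R : Subgroup (commutator G)).Characteristic :=
          Sylow.characteristic_of_normal R hRn
        have hRgN : ((R : Subgroup (commutator G)).map (commutator G).subtype).Normal :=
          ConjAct.normal_of_characteristic_of_normal
        have hRgP : IsPGroup r ((R : Subgroup (commutator G)).map (commutator G).subtype) :=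
          R.2.map _
        have hRgS : (R : Subgroup (commutator G)).map (commutator G).subtype ≤ (S : Subgroup G) :=
          hRgP.le_sylow_of_normal S
        intro x hx
        rw [Subgroup.mem_subgroupOf]
        exact hS (hRgS (Subgroup.mem_map_of_mem _ hx))
      · have hTq : IsPGroup q (T'.subgroupOf (commutator G)) := by
          have h4 : IsPGroup q T' := S.2.to_le hTS
          exact h4.comap_subtype
        obtain ⟨Q, hQ⟩ := hTq.exists_le_sylow
        have hQn := hKn q Q
        have hdis : Disjoint (R : Subgroup (commutator G)) (Q : Subgroup (commutator G)) :=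
          IsPGroup.disjoint_of_ne r q hrq _ _ R.2 Q.2
        have hX : (R : Subgroup (commutator G)).map (commutator G).subtype ≤ Subgroup.normalizer (T' : Set G) := by
          apply key
          rintro g ⟨x, hx, rfl⟩ h hh
          have hc := Subgroup.commute_of_normal_of_disjoint _ _ hRn hQn hdis x ⟨h, hTK hh⟩ hx
            (hQ (Subgroup.mem_subgroupOf.2 hh))
          have hc' : (x : G) * h = h * (x : G) := congrArg Subtype.val hc.eq
          change (x : G) * h * (x : G)⁻¹ ∈ T'
          rw [hc', mul_inv_cancel_right]
          exact hh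
        intro x hx
        rw [Subgroup.mem_subgroupOf]
        exact hX (Subgroup.mem_map_of_mem _ hx)
    have hdvd : ((Subgroup.normalizer (T' : Set G)).subgroupOf (commutator G)).index ∣
        (R : Subgroup (commutator G)).index := Subgroup.index_dvd_of_le hRle
    exact R.not_dvd_index (hrdvd.trans hdvd)
  have hNn : ((S : Subgroup G) ⊔ commutator G).Normal := by
    refine ⟨fun n hn g => ?_⟩
    have hc : ⁅g, n⁆ ∈ commutator G := by
      rw [commutator_def]
      exact Subgroup.commutator_mem_commutator (Subgroup.mem_top g) (Subgroup.mem_top n)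
    have h5 : g * n * g⁻¹ = ⁅g, n⁆ * n := by rw [commutatorElement_def]; group
    rw [h5]
    exact mul_mem (le_sup_right (a := (S : Subgroup G)) hc) hn
  have := hNn
  have hfr := Sylow.normalizer_sup_eq_top' S
    (le_sup_left : (S : Subgroup G) ≤ (S : Subgroup G) ⊔ commutator G)
  have htop : Subgroup.normalizer (T' : Set G) = ⊤ := by
    rw [eq_top_iff, ← hfr]
    exact sup_le h1 (sup_le hS h2)
  exact Subgroup.normalizer_eq_top_iff.1 htop

end Cfsg.Agent.Lib.helper18.S1451T
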