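import Mathlib
set_option autoImplicit false
namespace Cfsg.Agent.Lib.helper18.SylHomo



open Finset

theorem ord_pos (q r : ℕ) [Fact r.Prime] (hrq : ¬ r ∣ q) : 0 < orderOf (q : ZMod r) := by
  rw [orderOf_pos_iff, isOfFinOrder_iff_pow_eq_one]
  refine ⟨r - 1, Nat.sub_pos_of_lt (Fact.out : r.Prime).one_lt, ?_⟩
  apply ZMod.pow_card_sub_one_eq_one
  rwa [Ne, ZMod.natCast_eq_zero_iff]

theorem dvd_iff (q r : ℕ) [Fact r.Prime] (hq : 0 < q) (j : ℕ) :
    r ∣ q ^ j - 1 ↔ orderOf (q : ZMod r) ∣ j := by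
  rw [orderOf_dvd_iff_pow_eq_one, ← ZMod.natCast_eq_zero_iff]
  have h1 : 1 ≤ q ^ j := Nat.one_le_pow _ _ hq
  rw [Nat.cast_sub h1, Nat.cast_pow, Nat.cast_one, sub_eq_zero]

theorem cyc_prod (q d : ℕ) (hd : 0 < d) (hq : 0 < q) :
    q ^ d - 1 = ∏ e ∈ d.divisors, ((Polynomial.cyclotomic e ℤ).eval (q : ℤ)).natAbs := by
  have h := Polynomial.prod_cyclotomic_eq_X_pow_sub_one hd ℤ
  have h2 := congrArg (Polynomial.eval (q : ℤ)) h
  rw [Polynomial.eval_prod] at h2
  simp only [Polynomial.eval_sub, Polynomial.eval_pow, Polynomial.eval_X, Polynomial.eval_one] at h2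
  have h3 := congrArg Int.natAbs h2
  rw [← Int.natAbsHom_apply, map_prod] at h3
  simp only [Int.natAbsHom_apply] at h3
  rw [h3]
  have : ((q : ℤ) ^ d - 1) = ((q ^ d - 1 : ℕ) : ℤ) := by
    rw [Nat.cast_sub (Nat.one_le_pow _ _ hq)]; push_cast; ring
  rw [this, Int.natAbs_natCast]

theorem val_cyc (q r : ℕ) [Fact r.Prime] (hq : 1 < q) (hrq : ¬ r ∣ q) :
    padicValNat r (q ^ orderOf (q : ZMod r) - 1) =
      padicValNat r ((Polynomial.cyclotomic (orderOf (q : ZMod r)) ℤ).eval (q : ℤ)).natAbs := by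
  have hr : r.Prime := Fact.out
  set d := orderOf (q : ZMod r) with hd
  have hd0 : 0 < d := ord_pos q r hrq
  have hq0 : 0 < q := by omega
  have hne : q ^ d - 1 ≠ 0 := by
    have : 1 < q ^ d := Nat.one_lt_pow hd0.ne' hq
    omega
  have h1 := cyc_prod q d hd0 hq0
  rw [← Nat.insert_self_properDivisors hd0.ne', Finset.prod_insert (by simp)] at h1
  set A := ((Polynomial.cyclotomic d ℤ).eval (q : ℤ)).natAbs with hA
  set B := ∏ e ∈ d.properDivisors, ((Polynomial.cyclotomic e ℤ).eval (q : ℤ)).natAbs with hB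
  have hA0 : A ≠ 0 := by
    intro h; rw [h, zero_mul] at h1; exact hne h1
  have hB0 : B ≠ 0 := by
    intro h; rw [h, mul_zero] at h1; exact hne h1
  rw [h1, padicValNat.mul hA0 hB0]
  have hBr : ¬ r ∣ B := by
    intro hdiv
    rw [hB, Prime.dvd_finset_prod_iff hr.prime] at hdiv
    obtain ⟨e, he, hre⟩ := hdiv
    rw [Nat.mem_properDivisors] at he
    have he0 : 0 < e := Nat.pos_of_dvd_of_pos he.1 hd0
    have h2 := cyc_prod q e he0 hq0
    have h3 : ((Polynomial.cyclotomic e ℤ).eval (q : ℤ)).natAbs ∣ q ^ e - 1 := by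
      rw [h2]; exact Finset.dvd_prod_of_mem _ (Nat.mem_divisors_self e he0.ne')
    have h4 : r ∣ q ^ e - 1 := dvd_trans hre h3
    rw [dvd_iff q r hq0] at h4
    have := Nat.le_of_dvd he0 h4
    omega
  rw [padicValNat.eq_zero_of_not_dvd hBr, add_zero]

theorem val_pow (q r n : ℕ) [Fact r.Prime] (hq : 1 < q) (hrq : ¬ r ∣ q) (hrn : n < r) (j : ℕ)
    (hj1 : 1 ≤ j) (hjn : j ≤ n) :
    padicValNat r (q ^ j - 1) =
      if orderOf (q : ZMod r) ∣ j then padicValNat r (q ^ orderOf (q : ZMod r) - 1) else 0 := by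
  have hr : r.Prime := Fact.out
  have hq0 : 0 < q := by omega
  set d := orderOf (q : ZMod r) with hd
  have hd0 : 0 < d := ord_pos q r hrq
  split_ifs with hdj
  · obtain ⟨t, rfl⟩ := hdj
    have ht0 : t ≠ 0 := by rintro rfl; simp at hj1
    by_cases ht1 : t = 1
    · subst ht1; simp
    · have hr2 : r ≠ 2 := by
        rintro rfl
        have : 2 ≤ d * t := by
          have : 2 ≤ t := by omega
          nlinarith
        omega
      have hodd : Odd r := hr.odd_of_ne_two hr2
      have hyx : 1 < q ^ d := Nat.one_lt_pow hd0.ne' hq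
      have hxy : r ∣ q ^ d - 1 := (dvd_iff q r hq0 d).2 dvd_rfl
      have hx : ¬ r ∣ q ^ d := fun h => hrq (hr.dvd_of_dvd_pow h)
      have h := padicValNat.pow_sub_pow hodd hyx hxy hx ht0
      rw [one_pow] at h
      rw [pow_mul, h]
      have htr : ¬ r ∣ t := by
        apply Nat.not_dvd_of_pos_of_lt (Nat.pos_of_ne_zero ht0)
        have : t ≤ d * t := Nat.le_mul_of_pos_left t hd0
        omega
      rw [padicValNat.eq_zero_of_not_dvd htr, add_zero]
  · apply padicValNat.eq_zero_of_not_dvd
    rwa [dvd_iff q r hq0]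

theorem val_GL (q r n : ℕ) [Fact r.Prime] (hq : 1 < q) (hrq : ¬ r ∣ q) (hrn : n < r) :
    (∏ i : Fin n, (q ^ n - q ^ (i : ℕ))).factorization r =
      padicValNat r (q ^ orderOf (q : ZMod r) - 1) * (n / orderOf (q : ZMod r)) := by
  have hr : r.Prime := Fact.out
  have hq0 : 0 < q := by omega
  set d := orderOf (q : ZMod r) with hd
  have hne : ∀ i : Fin n, q ^ n - q ^ (i : ℕ) ≠ 0 := by
    intro i
    have : q ^ (i : ℕ) < q ^ n := Nat.pow_lt_pow_right hq i.2
    omega
  rw [Nat.factorization_prod (fun i _ => hne i)]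
  rw [Finsupp.finset_sum_apply]
  have hterm : ∀ i : Fin n, (q ^ n - q ^ (i : ℕ)).factorization r =
      if d ∣ n - (i : ℕ) then padicValNat r (q ^ d - 1) else 0 := by
    intro i
    have h1 : q ^ n - q ^ (i : ℕ) = q ^ (i : ℕ) * (q ^ (n - (i : ℕ)) - 1) := by
      rw [Nat.mul_sub, mul_one, ← pow_add]
      congr 2
      have := i.2
      omega
    have hne2 : q ^ (n - (i : ℕ)) - 1 ≠ 0 := by
      have : 1 < q ^ (n - (i : ℕ)) := Nat.one_lt_pow (by have := i.2; omega) hq
      omega
    rw [h1, Nat.factorization_mul (pow_ne_zero _ hq0.ne') hne2, Finsupp.add_apply,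
      Nat.factorization_pow, Finsupp.smul_apply, Nat.factorization_eq_zero_of_not_dvd hrq,
      smul_zero, zero_add, Nat.factorization_def _ hr]
    exact val_pow q r n hq hrq hrn _ (by have := i.2; omega) (by omega)
  rw [Finset.sum_congr rfl (fun i _ => hterm i)]
  rw [Fin.sum_univ_eq_sum_range (fun i => if d ∣ n - i then padicValNat r (q ^ d - 1) else 0) n]
  have h2 : ∑ i ∈ range n, (if d ∣ n - i then padicValNat r (q ^ d - 1) else 0) =
      ∑ j ∈ Ioc 0 n, (if d ∣ j then padicValNat r (q ^ d - 1) else 0) := by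
    apply Finset.sum_nbij' (fun i => n - i) (fun j => n - j)
    · intro i hi
      rw [Finset.mem_range] at hi
      rw [Finset.mem_Ioc]; omega
    · intro j hj
      rw [Finset.mem_Ioc] at hj
      rw [Finset.mem_range]; omega
    · intro i hi
      rw [Finset.mem_range] at hi
      omega
    · intro j hj
      rw [Finset.mem_Ioc] at hj
      omega
    · intro i _; rfl
  rw [h2, Finset.sum_ite, Finset.sum_const_zero, add_zero, Finset.sum_const,
    Nat.Ioc_filter_dvd_card_eq_div, smul_eq_mul, mul_comm]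



open Matrix

theorem exists_cyc {E : Type*} [Field E] [Finite E] (m : ℕ) (hm : m ∣ Nat.card E - 1) (hm0 : 0 < m) :
    ∃ ι : Multiplicative (ZMod m) →* Eˣ, Function.Injective ι := by
  classical
  have : Fintype E := Fintype.ofFinite E
  obtain ⟨g, hg⟩ := IsCyclic.exists_ofOrder_eq_natCard (α := Eˣ)
  rw [Nat.card_units] at hg
  obtain ⟨c, hc⟩ := hm
  have hc0 : c ≠ 0 := by
    rintro rfl
    rw [mul_zero] at hc
    rw [hc] at hg
    exact (orderOf_pos g).ne' hg
  set ω := g ^ c with hω
  have hord : orderOf ω = m := by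
    rw [hω, orderOf_pow_of_dvd hc0 (by rw [hg, hc]; exact dvd_mul_left c m), hg, hc,
      Nat.mul_div_cancel _ (Nat.pos_of_ne_zero hc0)]
  have hcard : Nat.card (Subgroup.zpowers ω) = m := by rw [Nat.card_zpowers, hord]
  have hcyc : IsCyclic (Subgroup.zpowers ω) := inferInstance
  have e := zmodCyclicMulEquiv hcyc
  rw [hcard] at e
  exact ⟨(Subgroup.zpowers ω).subtype.comp e.toMonoidHom,
    (Subgroup.subtype_injective _).comp e.injective⟩

/-- the action of `(Fin k → E)` by multiplication on `(Fin k → E) × W`. -/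
def Tact (F E W : Type*) [Field F] [Field E] [Algebra F E] [AddCommGroup W] [Module F W] (k : ℕ) :
    (Fin k → E) →* Module.End F ((Fin k → E) × W) where
  toFun := fun c =>
    { toFun := fun v => (fun i => c i * v.1 i, v.2)
      map_add' := by
        intro v w
        refine Prod.ext ?_ rfl
        funext i
        simp [mul_add]
      map_smul' := by
        intro a v
        refine Prod.ext ?_ rfl
        funext i
        simp }
  map_one' := by
    refine LinearMap.ext (fun v => Prod.ext ?_ rfl)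
    funext i
    simp
  map_mul' := by
    intro c c'
    refine LinearMap.ext (fun v => Prod.ext ?_ rfl)
    funext i
    simp [mul_assoc]

theorem Tact_inj (F E W : Type*) [Field F] [Field E] [Algebra F E] [AddCommGroup W] [Module F W] (k : ℕ) :
    Function.Injective (Tact F E W k) := by
  intro c c' h
  funext i
  have h1 := congrArg (fun f : Module.End F ((Fin k → E) × W) => (f ((fun _ => 1), 0)).1 i) h
  simpa [Tact] using h1

theorem exists_torus_aux {F E : Type*} [Field F] [Field E] [Algebra F E] [FiniteDimensional F E]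
    (n m k : ℕ) (hk : k * Module.finrank F E ≤ n)
    (ι : Multiplicative (ZMod m) →* Eˣ) (hι : Function.Injective ι) :
    ∃ Ψ : (Fin k → Multiplicative (ZMod m)) →* GL (Fin n) F, Function.Injective Ψ := by
  classical
  have hV : Module.finrank F ((Fin k → E) × (Fin (n - k * Module.finrank F E) → F)) =
      Module.finrank F (Fin n → F) := by
    rw [Module.finrank_prod, Module.finrank_pi_fintype, Module.finrank_fin_fun, Module.finrank_fin_fun]
    simp only [Finset.sum_const, Finset.card_univ, Fintype.card_fin, smul_eq_mul]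
    omega
  have φ : ((Fin k → E) × (Fin (n - k * Module.finrank F E) → F)) ≃ₗ[F] (Fin n → F) :=
    LinearEquiv.ofFinrankEq _ _ hV
  have hΘ : Function.Injective (((LinearMap.toMatrixAlgEquiv' (R := F) (n := Fin n)).toRingEquiv.toMonoidHom.comp
      (LinearEquiv.conjRingEquiv φ).toMonoidHom).comp (Tact F E (Fin (n - k * Module.finrank F E) → F) k)) :=
    ((LinearMap.toMatrixAlgEquiv' (R := F) (n := Fin n)).injective.comp
      (LinearEquiv.conjRingEquiv φ).injective).comp (Tact_inj F E _ k)
  refine ⟨(Units.map (((LinearMap.toMatrixAlgEquiv' (R := F) (n := Fin n)).toRingEquiv.toMonoidHom.comp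
      (LinearEquiv.conjRingEquiv φ).toMonoidHom).comp (Tact F E (Fin (n - k * Module.finrank F E) → F) k))).comp
      ((MulEquiv.piUnits (M := fun _ : Fin k => E)).symm.toMonoidHom.comp
      (MonoidHom.pi (fun i => ι.comp (Pi.evalMonoidHom _ i)))), ?_⟩
  refine (Units.map_injective hΘ).comp ((MulEquiv.piUnits (M := fun _ : Fin k => E)).symm.injective.comp ?_)
  intro c c' h
  funext i
  exact hι (congrFun h i)

theorem exists_torus {F : Type*} [Field F] [Fintype F] (n d m k : ℕ) (hd : 0 < d) (hk : k * d ≤ n)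
    (hm : m ∣ Fintype.card F ^ d - 1) (hm0 : 0 < m) :
    ∃ Ψ : (Fin k → Multiplicative (ZMod m)) →* GL (Fin n) F, Function.Injective Ψ := by
  classical
  obtain ⟨p, hp⟩ := CharP.exists F
  have : Fact p.Prime := ⟨CharP.char_is_prime F p⟩
  have : NeZero d := ⟨hd.ne'⟩
  have hfr : Module.finrank F (FiniteField.Extension F p d) = d := FiniteField.finrank_extension F p d
  have hcE : Nat.card (FiniteField.Extension F p d) = Nat.card F ^ d := FiniteField.natCard_extension F p d
  rw [Nat.card_eq_fintype_card (α := F)] at hcE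
  obtain ⟨ι, hι⟩ := exists_cyc (E := FiniteField.Extension F p d) m (by rw [hcE]; exact hm) hm0
  exact exists_torus_aux (F := F) (E := FiniteField.Extension F p d) n m k (by rw [hfr]; exact hk) ι hι


end Cfsg.Agent.Lib.helper18.SylHomo
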