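import Mathlib
import Cfsg.Agent.Lib.helper18.UniForm2

set_option autoImplicit false
namespace Cfsg.Agent.Lib.helper18.UniForm

open Cfsg.Agent.Lib.helper18.Jordan
open Matrix

universe u v
variable {F : Type u} [Field F]

/-- isometries `u` of a nondegenerate symmetric form with `u + 1` invertible:
`rank (u-1)^(2b+1)` is even -/
theorem even_rank_pow_sym {V : Type v} [AddCommGroup V] [Module F V] [FiniteDimensional F V]
    (B : V →ₗ[F] V →ₗ[F] F) (hB : ∀ x y, B x y = B y x) (hnd : LinearMap.ker B = ⊥)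
    (u : Module.End F V) (hu : ∀ v w, B (u v) (u w) = B v w)
    (hs : Function.Surjective (⇑(u + 1 : Module.End F V))) (b : ℕ) :
    Even (Module.finrank F (LinearMap.range ((u - 1) ^ (2 * b + 1)))) := by
  have hcomm : Commute (u - 1) u := (Commute.refl u).sub_left (Commute.one_left u)
  have hstar : ∀ x y, B ((u - 1) x) (u y) = - B x ((u - 1) y) := by
    intro x y
    simp only [LinearMap.sub_apply, Module.End.one_apply, map_sub, hu]
    ring
  have hpow : ∀ (b : ℕ) x y, B (((u - 1) ^ b) x) ((u ^ b) y) = (-1) ^ b * B x (((u - 1) ^ b) y) := by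
    intro b
    induction b with
    | zero => intro x y; simp
    | succ b ih =>
      intro x y
      rw [pow_succ' (u - 1), pow_succ' u, Module.End.mul_apply, Module.End.mul_apply, hstar]
      have h1 : (u - 1) ((u ^ b) y) = (u ^ b) ((u - 1) y) :=
        LinearMap.congr_fun (hcomm.pow_right b).eq y
      rw [h1, ih, ← pow_succ' (u - 1) b, pow_succ (u - 1) b, Module.End.mul_apply]
      ring
  let K : V →ₗ[F] V →ₗ[F] F := B.compl₂ u - B ∘ₗ u
  have hK : ∀ x y, K x y = B x (u y) - B (u x) y := fun x y => rfl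
  let C : V →ₗ[F] V →ₗ[F] F := K.compl₁₂ ((u - 1) ^ b) ((u - 1) ^ b)
  have hC : ∀ v, C v v = 0 := by
    intro v
    show K _ _ = 0
    rw [hK, hB, sub_self]
  have hev := alt_even _ C hC rfl
  have hskew : ∀ x y, C x y = - C y x := by
    intro x y
    have := hC (x + y)
    simp only [map_add, LinearMap.add_apply, hC x, hC y, zero_add, add_zero] at this
    exact eq_neg_of_add_eq_zero_right this
  have hinj : Function.Injective u := by
    rw [← LinearMap.ker_eq_bot, eq_bot_iff]
    intro v hv
    rw [LinearMap.mem_ker] at hv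
    have : v ∈ LinearMap.ker B := by
      rw [LinearMap.mem_ker]
      ext w
      rw [← hu, hv]
      simp
    rw [hnd] at this
    exact this
  have hsurj : Function.Surjective u := LinearMap.injective_iff_surjective.1 hinj
  have hsurjb : Function.Surjective (u ^ (b + 1)) := by
    rw [Module.End.coe_pow]
    exact hsurj.iterate (b + 1)
  have hflip : B.flip = B := by
    ext x y
    exact hB y x
  have hflipinj : Function.Injective B.flip := by
    rw [hflip, ← LinearMap.ker_eq_bot]
    exact hnd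
  have hCflip : C = - C.flip := by
    ext v w
    simp only [LinearMap.neg_apply, LinearMap.flip_apply]
    exact hskew _ _
  have h1 : LinearMap.range C = LinearMap.range C.flip := by
    conv_lhs => rw [hCflip]
    rw [LinearMap.range_neg]
  have h2 : C.flip ∘ₗ (u ^ (b + 1)) =
      B.flip ∘ₗ ((-1 : F) ^ b • ((u - 1) ^ (2 * b + 1) * (u + 1))) := by
    ext w v
    simp only [LinearMap.comp_apply, LinearMap.flip_apply, LinearMap.smul_apply, map_smul,
      smul_eq_mul]
    show K (((u - 1) ^ b) v) (((u - 1) ^ b) ((u ^ (b + 1)) w)) = _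
    have c1 : ((u - 1) ^ b) ((u ^ (b + 1)) w) = (u ^ (b + 1)) (((u - 1) ^ b) w) :=
      LinearMap.congr_fun (hcomm.pow_pow b (b + 1)).eq w
    have c2 : ∀ z, u (u ((u ^ b) z)) = (u ^ b) (u (u z)) := by
      intro z
      have : u * (u * u ^ b) = u ^ b * (u * u) := by
        rw [← pow_succ', ← pow_succ', pow_succ, pow_succ, mul_assoc]
      exact LinearMap.congr_fun this z
    have c3 : (u + 1) (((u - 1) ^ b) w) = ((u - 1) ^ b) ((u + 1) w) := by
      have h : Commute (u + 1) (u - 1) :=
        ((Commute.refl u).sub_right (Commute.one_right u)).add_left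
          (Commute.one_left (u - 1))
      exact LinearMap.congr_fun (h.pow_right b).eq w
    have c4 : ∀ y, u (u y) - y = (u - 1) ((u + 1) y) := by
      intro y
      simp only [LinearMap.sub_apply, LinearMap.add_apply, Module.End.one_apply, map_add]
      abel
    have c5 : (u - 1) ^ (2 * b + 1) = (u - 1) ^ b * ((u - 1) * (u - 1) ^ b) := by
      rw [← pow_succ', ← pow_add]
      congr 1
      omega
    rw [c1, hK, pow_succ' u b, Module.End.mul_apply, hu, c2, hpow, hpow, ← mul_sub, ← map_sub,
      ← map_sub, c4, c3, c5, Module.End.mul_apply, Module.End.mul_apply, Module.End.mul_apply]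
  have h4 : LinearMap.range (C.flip ∘ₗ (u ^ (b + 1))) = LinearMap.range C.flip :=
    LinearMap.range_comp_of_range_eq_top _ (LinearMap.range_eq_top.2 hsurjb)
  rw [h1, ← h4, h2, LinearMap.range_comp,
    LinearMap.range_smul _ _ (pow_ne_zero b (neg_ne_zero.2 one_ne_zero)),
    ← (Submodule.equivMapOfInjective B.flip hflipinj _).finrank_eq] at hev
  have h5 : LinearMap.range ((u - 1) ^ (2 * b + 1) * (u + 1)) =
      LinearMap.range ((u - 1) ^ (2 * b + 1)) :=
    LinearMap.range_comp_of_range_eq_top _ (LinearMap.range_eq_top.2 hs)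
  rw [h5] at hev
  exact hev


theorem even_rank_odd_pow_mat {n : Type*} [Fintype n] [DecidableEq n] (h2 : (2 : F) ≠ 0)
    (B : (n → F) →ₗ[F] (n → F) →ₗ[F] F) (hB : ∀ x y, B x y = B y x)
    (hnd : LinearMap.ker B = ⊥) (A : Matrix n n F)
    (hu : ∀ v w, B (A *ᵥ v) (A *ᵥ w) = B v w) (hN : IsNilpotent (A - 1)) (b : ℕ) :
    Even (((A - 1) ^ (2 * b + 1)).rank) := by
  have hunit2 : IsUnit ((2 : F) • (1 : Matrix n n F)) :=
    ⟨⟨(2 : F) • 1, (2⁻¹ : F) • 1, by
      rw [smul_mul_smul_comm, mul_inv_cancel₀ h2, one_smul, one_mul], by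
      rw [smul_mul_smul_comm, inv_mul_cancel₀ h2, one_smul, one_mul]⟩, rfl⟩
  have hA1 : IsUnit (A + 1) := by
    have h := hN.isUnit_add_left_of_commute hunit2
      (Commute.smul_right (Commute.one_right (A - 1)) (2 : F))
    have e : (2 : F) • (1 : Matrix n n F) + (A - 1) = A + 1 := by
      rw [two_smul]
      abel
    rwa [e] at h
  have hs : Function.Surjective (⇑(Matrix.toLin' A + 1 : Module.End F (n → F))) := by
    have h1 := Matrix.mulVec_surjective_iff_isUnit.2 hA1
    intro w
    obtain ⟨v, hv⟩ := h1 w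
    refine ⟨v, ?_⟩
    rw [← hv]
    simp [Matrix.add_mulVec]
  have h := even_rank_pow_sym B hB hnd (Matrix.toLin' A)
    (fun v w => by rw [Matrix.toLin'_apply, Matrix.toLin'_apply]; exact hu v w) hs b
  rw [rank_eq_finrank]
  have h3 : Matrix.toLin' (A - 1) = Matrix.toLin' A - 1 := by
    rw [map_sub, Matrix.toLin'_one]
    rfl
  rw [h3]
  exact h

theorem quad_isometry {n : Type*} [Fintype n] [DecidableEq n] (G A : Matrix n n F)
    (hA : Aᵀ * G * A = G) (v w : n → F) :
    (A *ᵥ v) ⬝ᵥ G *ᵥ (A *ᵥ w) = v ⬝ᵥ G *ᵥ w := by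
  rw [← Matrix.vecMul_transpose, ← Matrix.dotProduct_mulVec, Matrix.mulVec_mulVec,
    Matrix.mulVec_mulVec, hA]

end Cfsg.Agent.Lib.helper18.UniForm
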